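import Mathlib
import Cfsg.Agent.H4.CardSL

set_option autoImplicit false
set_option linter.unusedSectionVars false

/-!
Elements of prime order commuting with an element of order `p` in the projective special linear groups.
-/

namespace Cfsg.Agent.H39.CentP

open Matrix

/-- linear maps of order prime to `#GL_k` -/
theorem eq_one_of_pow {F : Type*} [Field F] [Fintype F] {W : Type*} [AddCommGroup W] [Module F W] [FiniteDimensional F W]
    {r : ℕ} (hr : r.Prime) (h : ∀ j, 1 ≤ j → j ≤ Module.finrank F W → ¬ r ∣ Fintype.card F ^ j - 1)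
    (hq : ¬ r ∣ Fintype.card F) {f : W →ₗ[F] W} (hf : f ^ r = 1) : f = 1 := by
  classical
  by_contra hne
  let u : (W →ₗ[F] W)ˣ := ⟨f, f ^ (r - 1), by rw [← pow_succ', Nat.sub_add_cancel hr.one_le, hf],
    by rw [← pow_succ, Nat.sub_add_cancel hr.one_le, hf]⟩
  have hu : orderOf u = r := by
    have := Fact.mk hr
    refine orderOf_eq_prime ?_ ?_
    · apply Units.ext; rw [Units.val_pow_eq_pow_val]; exact hf
    · intro h; exact hne (congrArg Units.val h)
  let e := (Units.mapEquiv (LinearMap.toMatrixAlgEquiv (Module.finBasis F W)).toMulEquiv)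
  have h1 : r ∣ Nat.card (GL (Fin (Module.finrank F W)) F) := by
    rw [← hu, ← e.orderOf_eq u]
    exact orderOf_dvd_natCard _
  rw [Matrix.card_GL_field, hr.prime.dvd_finset_prod_iff] at h1
  obtain ⟨i, -, hi⟩ := h1
  have h2 : Fintype.card F ^ Module.finrank F W - Fintype.card F ^ (i : ℕ) =
      Fintype.card F ^ (i : ℕ) * (Fintype.card F ^ (Module.finrank F W - i) - 1) := by
    rw [Nat.mul_sub, ← pow_add, mul_one]
    congr 2
    have := i.2
    omega
  rw [h2, hr.dvd_mul] at hi
  rcases hi with hi | hi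
  · exact hq (hr.dvd_of_dvd_pow hi)
  · exact h _ (by have := i.2; omega) (by omega) hi

/-- prime divisors of the order of the special linear group -/
theorem dvd_card_SL {F : Type*} [Field F] [Fintype F] {m r : ℕ} (hm : 2 ≤ m)
    (h : r ∣ Fintype.card F ∨ ∃ j, 1 ≤ j ∧ j ≤ m ∧ r ∣ Fintype.card F ^ j - 1) :
    r ∣ Nat.card (Matrix.SpecialLinearGroup (Fin m) F) := by
  classical
  set q := Fintype.card F with hq
  have hq2 : 2 ≤ q := Fintype.one_lt_card
  have h1 := Cfsg.Agent.H4.card_SL_mul (F := F) m (by omega)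
  rw [Matrix.card_GL_field, ← hq] at h1
  have hq1 : 0 < q - 1 := by omega
  have hsub : ∀ i ≤ m, q ^ m - q ^ i = q ^ i * (q ^ (m - i) - 1) := by
    intro i hi
    rw [Nat.mul_sub, ← pow_add, mul_one]
    congr 2; omega
  -- two distinct factors
  have key : ∀ j, 2 ≤ j → j ≤ m → q ^ (m - j) * (q ^ j - 1) ∣ Nat.card (Matrix.SpecialLinearGroup (Fin m) F) := by
    intro j hj hjm
    have h2 := Finset.prod_erase_mul Finset.univ (fun i : Fin m => q ^ m - q ^ (i : ℕ)) (Finset.mem_univ ⟨m - 1, by omega⟩)
    have h3 := Finset.prod_erase_mul (Finset.univ.erase (⟨m - 1, by omega⟩ : Fin m)) (fun i : Fin m => q ^ m - q ^ (i : ℕ))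
      (a := ⟨m - j, by omega⟩) (by
        rw [Finset.mem_erase]
        refine ⟨?_, Finset.mem_univ _⟩
        intro h4
        have := congrArg Fin.val h4
        simp only at this
        omega)
    rw [← h3] at h2
    simp only at h2
    rw [hsub (m - 1) (by omega), hsub (m - j) (by omega), show m - (m - 1) = 1 by omega,
      show m - (m - j) = j by omega, pow_one] at h2
    have h5 : (q - 1) * Nat.card (Matrix.SpecialLinearGroup (Fin m) F) = (q - 1) *
        ((∏ x ∈ (Finset.univ.erase (⟨m - 1, by omega⟩ : Fin m)).erase ⟨m - j, by omega⟩, (q ^ m - q ^ (x : ℕ))) *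
          (q ^ (m - j) * (q ^ j - 1)) * q ^ (m - 1)) := by
      rw [h1, ← h2]; ring
    have h6 := Nat.eq_of_mul_eq_mul_left hq1 h5
    rw [h6]
    exact (Dvd.intro_left _ rfl).mul_right _
  rcases h with h | ⟨j, hj1, hjm, h⟩
  · have h2 := key 2 le_rfl hm
    by_cases h3 : m = 2
    · subst h3
      -- the factor `q`
      have h4 : (q - 1) * Nat.card (Matrix.SpecialLinearGroup (Fin 2) F) = (q - 1) * (q * (q ^ 2 - 1)) := by
        rw [h1, Fin.prod_univ_two]
        simp only [Fin.val_zero, Fin.val_one, pow_zero, pow_one]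
        have : q ^ 2 - q = (q - 1) * q := by
          rw [Nat.sub_mul, one_mul]; congr 1; ring
        rw [this]; ring
      rw [Nat.eq_of_mul_eq_mul_left hq1 h4]
      exact h.mul_right _
    · refine (h.trans ?_).trans h2
      exact (dvd_pow_self q (by omega)).mul_right _
  · rcases Nat.lt_or_ge j 2 with h2 | h2
    · have hj : j = 1 := by omega
      subst hj
      refine (h.trans ?_).trans (key 2 le_rfl hm)
      rw [pow_one]
      refine Dvd.dvd.mul_left ?_ _
      exact Nat.sub_one_dvd_pow_sub_one q 2 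
    · exact (h.trans (Dvd.intro_left _ rfl)).trans (key j h2 hjm)

/-- a map of order `r` commuting with a nilpotent map of square zero -/
theorem sub_one_pow_three {F : Type*} [Field F] [Fintype F] {V : Type*} [AddCommGroup V] [Module F V]
    [FiniteDimensional F V] {n r : ℕ} (hn : 4 ≤ n) (hV : Module.finrank F V = n) (hr : r.Prime)
    (h : ∀ j, 1 ≤ j → j ≤ n - 2 → ¬ r ∣ Fintype.card F ^ j - 1)
    (hq : ¬ r ∣ Fintype.card F) {B N : V →ₗ[F] V} (hN : N ≠ 0) (hN2 : N * N = 0) (hBN : B * N = N * B)
    (hB : B ^ r = 1) : (B - 1) ^ 3 = 0 := by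
  have hle : N.range ≤ N.ker := by
    rintro _ ⟨x, rfl⟩
    rw [LinearMap.mem_ker, ← Module.End.mul_apply, hN2]; rfl
  have hd := N.finrank_range_add_finrank_ker
  rw [hV] at hd
  have hd1 : 1 ≤ Module.finrank F N.range := by
    by_contra h0
    have : Module.finrank F N.range = 0 := by omega
    rw [Submodule.finrank_eq_zero, LinearMap.range_eq_bot] at this
    exact hN this
  have hd2 := Submodule.finrank_mono hle
  -- `B` is the identity on the range of `N`
  have hBr : ∀ x ∈ N.range, B x ∈ N.range := by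
    rintro _ ⟨x, rfl⟩
    exact ⟨B x, by rw [← Module.End.mul_apply, ← hBN]; rfl⟩
  have hBk : ∀ x ∈ N.ker, B x ∈ N.ker := by
    intro x hx
    rw [LinearMap.mem_ker] at hx ⊢
    rw [← Module.End.mul_apply, ← hBN, Module.End.mul_apply, hx, map_zero]
  have h1 : ∀ x ∈ N.range, B x = x := by
    have h2 : (B.restrict hBr) ^ r = 1 := by
      rw [Module.End.pow_restrict]
      ext x
      simp [LinearMap.restrict_apply, hB]
    have h3 := eq_one_of_pow hr (fun j h4 h5 => h j h4 (by omega)) hq h2
    intro x hx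
    have := congrArg Subtype.val (LinearMap.congr_fun h3 ⟨x, hx⟩)
    exact this
  -- on `ker N / range N`
  let P : Submodule F N.ker := N.range.comap N.ker.subtype
  have hPr : Module.finrank F P = Module.finrank F N.range := by
    have := LinearEquiv.finrank_eq (Submodule.comapSubtypeEquivOfLe hle)
    exact this
  have hQ : Module.finrank F (N.ker ⧸ P) ≤ n - 2 := by
    have := Submodule.finrank_quotient_add_finrank P
    omega
  let Bk : N.ker →ₗ[F] N.ker := B.restrict hBk
  have hPB : P ≤ P.comap Bk := by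
    intro x hx
    exact hBr _ hx
  have h2 : ∀ x ∈ N.ker, B x - x ∈ N.range := by
    have h3 : (P.mapQ P Bk hPB) ^ r = 1 := by
      have h4 : ∀ k : ℕ, ∀ x : N.ker, ((P.mapQ P Bk hPB) ^ k) (P.mkQ x) = P.mkQ ((Bk ^ k) x) := by
        intro k
        induction k with
        | zero => intro x; rfl
        | succ k ih =>
          intro x
          rw [pow_succ', Module.End.mul_apply, ih, pow_succ', Module.End.mul_apply]
          rfl
      ext x
      have h5 : (Bk ^ r) x = x := by
        have : Bk ^ r = (B ^ r).restrict (fun x hx => by rw [hB]; exact hx) := Module.End.pow_restrict _ _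
        rw [this]
        apply Subtype.ext
        simp [LinearMap.restrict_apply, hB]
      have h6 := h4 r x
      rw [h5] at h6
      exact h6
    have h4 := eq_one_of_pow hr (fun j h5 h6 => h j h5 (by omega)) hq h3
    intro x hx
    have h5 := LinearMap.congr_fun h4 (P.mkQ ⟨x, hx⟩)
    have h6 : P.mkQ (Bk ⟨x, hx⟩) = P.mkQ ⟨x, hx⟩ := h5
    rw [Submodule.mkQ_apply, Submodule.mkQ_apply, Submodule.Quotient.eq] at h6
    exact h6
  ext x
  have e1 : (B - 1) x ∈ N.ker := by
    rw [LinearMap.mem_ker, LinearMap.sub_apply, Module.End.one_apply, map_sub, ← Module.End.mul_apply, ← hBN,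
      Module.End.mul_apply, h1 _ ⟨x, rfl⟩, sub_self]
  have e2 : (B - 1) ((B - 1) x) ∈ N.range := h2 _ e1
  have e3 : (B - 1) ((B - 1) ((B - 1) x)) = 0 := by
    rw [LinearMap.sub_apply B 1 ((B - 1) ((B - 1) x)), h1 _ e2]; simp
  rw [pow_succ, pow_two, Module.End.mul_apply, Module.End.mul_apply]
  exact e3

/-- unipotent elements of order prime to `p` are trivial -/
theorem eq_one_of_unipotent {R : Type*} [Ring R] {p : ℕ} [hp : Fact p.Prime] [CharP R p] {B : R} {k r : ℕ}
    (h : (B - 1) ^ k = 0) (hr : r.Coprime p) (hB : B ^ r = 1) : B = 1 := by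
  obtain ⟨j, hj⟩ : ∃ j, k ≤ p ^ j := ⟨k, (Nat.lt_pow_self hp.out.one_lt).le⟩
  have h1 : B ^ p ^ j = 1 := by
    have h2 := sub_pow_char_pow_of_commute p j (Commute.one_right B)
    rw [one_pow] at h2
    have h3 : (B - 1) ^ p ^ j = 0 := by
      rw [← Nat.sub_add_cancel hj, pow_add, h, mul_zero]
    rw [h3] at h2
    exact (sub_eq_zero.1 h2.symm)
  have h2 := orderOf_dvd_of_pow_eq_one h1
  have h3 := orderOf_dvd_of_pow_eq_one hB
  have h4 := Nat.dvd_gcd h3 h2
  rw [Nat.Coprime.gcd_eq_one (Nat.Coprime.pow_right j hr), Nat.dvd_one, orderOf_eq_one_iff] at h4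
  exact h4

end Cfsg.Agent.H39.CentP
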