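import Mathlib
import Cfsg.Agent.H39.CentP
import Cfsg.Agent.H42.Herm

set_option autoImplicit false
set_option linter.unusedSectionVars false

/-!
Elements of prime order commuting with an element of order `p` in the projective unitary groups.
-/

namespace Cfsg.Agent.H39.CentU

open Cfsg.Agent.H42.Herm (IsH exists_basis herm_coord std_isH)

/-- lifting a commuting pair from a central quotient -/
theorem lift_pair {G : Type*} [Group G] {p r e : ℕ} (hp : p.Prime) (hr : r.Prime) (hpe : p.Coprime e) (hre : ¬ r ∣ e)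
    (Z : Subgroup G) [Z.Normal] (hZc : ∀ z ∈ Z, ∀ g, g * z = z * g)
    (hZ : ∀ z ∈ Z, z ^ e = 1) {a b : G ⧸ Z} (ha : orderOf a = p)
    (hrb : r ∣ orderOf b) (hb0 : 0 < orderOf b) (hab : Commute a b) :
    ∃ A B : G, A ^ p = 1 ∧ A ≠ 1 ∧ A * B = B * A ∧ B ^ r = 1 ∧ B ≠ 1 := by
  have := Fact.mk hr
  set m := orderOf b / r with hm
  set b' := b ^ m with hb'
  have hob' : orderOf b' = r := orderOf_pow_orderOf_div hb0.ne' hrb
  have hcomm : Commute a b' := hab.pow_right m
  have hZp : ∀ z ∈ Z, z ^ p = 1 → z = 1 := by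
    intro z hz h
    have h1 := orderOf_dvd_of_pow_eq_one h
    have h2 := orderOf_dvd_of_pow_eq_one (hZ z hz)
    have h3 := Nat.dvd_gcd h1 h2
    rw [hpe.gcd_eq_one, Nat.dvd_one, orderOf_eq_one_iff] at h3
    exact h3
  obtain ⟨A₀, rfl⟩ := QuotientGroup.mk_surjective a
  have hA₀ : A₀ ^ p ∈ Z := by
    rw [← QuotientGroup.eq_one_iff, QuotientGroup.mk_pow, ← ha]
    exact pow_orderOf_eq_one _
  obtain ⟨w, hw, hwp⟩ : ∃ w ∈ Z, w ^ p = (A₀ ^ p)⁻¹ := by
    refine ⟨((A₀ ^ p)⁻¹) ^ (Nat.gcdA p e), Z.zpow_mem (Z.inv_mem hA₀) _, ?_⟩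
    have h1 := Nat.gcd_eq_gcd_ab p e
    rw [hpe.gcd_eq_one] at h1
    have h2 : ((A₀ ^ p)⁻¹ : G) ^ (e : ℤ) = 1 := by
      rw [zpow_natCast]; exact hZ _ (Z.inv_mem hA₀)
    rw [← zpow_natCast, ← zpow_mul]
    have h3 : Nat.gcdA p e * (p : ℤ) = 1 - (e : ℤ) * Nat.gcdB p e := by
      have : ((1 : ℕ) : ℤ) = 1 := rfl
      rw [this] at h1
      linarith
    rw [h3, zpow_sub, zpow_one, zpow_mul, h2, one_zpow, inv_one, mul_one]
  set A := A₀ * w with hA
  have hwc : Commute A₀ w := hZc w hw A₀
  have hAp : A ^ p = 1 := by rw [hA, hwc.mul_pow, hwp, mul_inv_cancel]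
  have hmkA : (QuotientGroup.mk A : G ⧸ Z) = QuotientGroup.mk A₀ := by
    rw [QuotientGroup.eq, hA]
    have : (A₀ * w)⁻¹ * A₀ = w⁻¹ := by group
    rw [this]; exact Z.inv_mem hw
  have hA1 : A ≠ 1 := by
    intro h
    rw [← hmkA, h] at ha
    rw [QuotientGroup.mk_one, orderOf_one] at ha
    exact hp.one_lt.ne ha
  obtain ⟨B₀, hB₀⟩ := QuotientGroup.mk_surjective b'
  have hB₀r : B₀ ^ r ∈ Z := by
    rw [← QuotientGroup.eq_one_iff, QuotientGroup.mk_pow, hB₀, ← hob']
    exact pow_orderOf_eq_one _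
  have hd : A * B₀ * A⁻¹ * B₀⁻¹ ∈ Z := by
    rw [← QuotientGroup.eq_one_iff]
    simp only [QuotientGroup.mk_mul, QuotientGroup.mk_inv]
    rw [hmkA, hB₀]
    have h1 : (QuotientGroup.mk A₀ : G ⧸ Z) * b' = b' * QuotientGroup.mk A₀ := hcomm
    rw [h1]; group
  have hAB : A * B₀ = B₀ * A := by
    set d := A * B₀ * A⁻¹ * B₀⁻¹ with hdd
    have h1 : ∀ k : ℕ, A ^ k * B₀ * (A ^ k)⁻¹ = d ^ k * B₀ := by
      intro k
      induction k with
      | zero => simp
      | succ k ih =>
        have h2 : A * B₀ * A⁻¹ = d * B₀ := by rw [hdd]; group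
        have h3 : A ^ (k + 1) * B₀ * (A ^ (k + 1))⁻¹ = A * (A ^ k * B₀ * (A ^ k)⁻¹) * A⁻¹ := by
          rw [pow_succ']; group
        have h4 : A * d ^ k = d ^ k * A := hZc _ (Z.pow_mem hd k) A
        rw [h3, ih]
        calc A * (d ^ k * B₀) * A⁻¹ = (A * d ^ k) * B₀ * A⁻¹ := by group
          _ = d ^ k * (A * B₀ * A⁻¹) := by rw [h4]; group
          _ = d ^ (k + 1) * B₀ := by rw [h2, pow_succ]; group
    have h2 := h1 p
    rw [hAp] at h2
    have h3 : d ^ p = 1 := by
      have h5 : d ^ p * B₀ = 1 * B₀ := by rw [← h2]; simp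
      exact mul_right_cancel h5
    have h4 := hZp d hd h3
    rw [hdd, mul_inv_eq_one, mul_inv_eq_iff_eq_mul] at h4
    exact h4
  refine ⟨A, B₀ ^ e, hAp, hA1, (show Commute A B₀ from hAB).pow_right e, ?_, ?_⟩
  · rw [← pow_mul, mul_comm, pow_mul]; exact hZ _ hB₀r
  · intro h
    have h1 : b' ^ e = 1 := by rw [← hB₀, ← QuotientGroup.mk_pow, h]; rfl
    have h2 := orderOf_dvd_of_pow_eq_one h1
    rw [hob'] at h2
    exact hre h2

/-- the factors of the order of the unitary group -/
def fac (q i : ℕ) : ℕ := if Even i then q ^ (i + 1) + 1 else q ^ (i + 1) - 1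

theorem dvd_card_SU {F : Type*} [Field F] [Fintype F] {m q r : ℕ} (hF : Fintype.card F = q ^ 2) (hm : 2 ≤ m)
    (h : r ∣ q ∨ ∃ i < m, r ∣ fac q i) : r ∣ Nat.card (Cfsg.SU m F q) := by
  classical
  obtain ⟨n, rfl⟩ : ∃ n, m = n + 2 := ⟨m - 2, by omega⟩
  have h1 := Cfsg.Agent.Uni.card_SU hF (n := n + 2) (by omega)
  rw [Finset.prod_range_succ'] at h1
  simp only [Even.zero, if_true, zero_add, pow_one] at h1
  have h2 : Nat.card (Cfsg.SU (n + 2) F q) = q ^ ((n + 2) * (n + 2 - 1) / 2) *
      ∏ k ∈ Finset.range (n + 1), fac q (k + 1) := by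
    apply Nat.eq_of_mul_eq_mul_left (show 0 < q + 1 by omega)
    rw [h1]
    simp only [fac]
    ring
  rw [h2]
  rcases h with h | ⟨i, hi, h⟩
  · refine Dvd.dvd.mul_right (h.trans (dvd_pow_self q ?_)) _
    have : 2 ≤ (n + 2) * (n + 2 - 1) := by
      calc 2 = 2 * 1 := rfl
        _ ≤ _ := Nat.mul_le_mul (by omega) (by omega)
    omega
  · refine Dvd.dvd.mul_left ?_ _
    rcases Nat.eq_zero_or_pos i with h0 | h0
    · subst h0
      refine (h.trans ?_).trans (Finset.dvd_prod_of_mem _ (Finset.mem_range.2 (show 0 < n + 1 by omega)))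
      simp only [fac]
      rw [if_pos (by decide), if_neg (by decide)]
      refine ⟨q - 1, ?_⟩
      have := Nat.sq_sub_sq q 1
      rw [one_pow] at this
      simpa using this
    · obtain ⟨j, rfl⟩ : ∃ j, i = j + 1 := ⟨i - 1, by omega⟩
      exact h.trans (Finset.dvd_prod_of_mem _ (Finset.mem_range.2 (show j < n + 1 by omega)))

/-- isometries of order prime to the order of the unitary group -/
theorem eq_one_of_isometry {F : Type*} [Field F] [Fintype F] {q : ℕ} (hF : Fintype.card F = q ^ 2) {W : Type*}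
    [AddCommGroup W] [Module F W] [FiniteDimensional F W] {H : W → W → F} (h : IsH q H) {r : ℕ} (hr : r.Prime)
    (hrq : ¬ r ∣ q) (hrj : ∀ i < Module.finrank F W, ¬ r ∣ fac q i) {f : W →ₗ[F] W}
    (hf : ∀ u v, H (f u) (f v) = H u v) (hfr : f ^ r = 1) : f = 1 := by
  classical
  by_contra hne
  obtain ⟨b, hb⟩ := exists_basis h hF (rfl : Module.finrank F W = Module.finrank F W)
  have happ : ∀ v, Matrix.mulVec (LinearMap.toMatrixAlgEquiv b f) (b.equivFun v) = b.equivFun (f v) := by
    intro v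
    exact LinearMap.toMatrix_mulVec_repr b b f v
  have hpres : Uni.Pres q (LinearMap.toMatrixAlgEquiv b f) := by
    intro u v
    obtain ⟨u', rfl⟩ := b.equivFun.surjective u
    obtain ⟨v', rfl⟩ := b.equivFun.surjective v
    rw [happ, happ, ← herm_coord h hF b hb, ← herm_coord h hF b hb, hf]
  let g : Cfsg.GU (Module.finrank F W) F q := Uni.mkGU hF (LinearMap.toMatrixAlgEquiv b f) hpres
  have hgr : g ^ r = 1 := by
    apply Uni.GU_ext
    have h1 : (((g ^ r : Cfsg.GU (Module.finrank F W) F q) : Matrix.GeneralLinearGroup (Fin (Module.finrank F W)) F) :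
        Matrix (Fin (Module.finrank F W)) (Fin (Module.finrank F W)) F) =
        (LinearMap.toMatrixAlgEquiv b f) ^ r := by
      rw [Subgroup.coe_pow, Units.val_pow_eq_pow_val]; rfl
    rw [h1, ← map_pow, hfr, map_one]; rfl
  have hg1 : g ≠ 1 := by
    intro h1
    apply hne
    apply (LinearMap.toMatrixAlgEquiv b).injective
    rw [map_one]
    exact congrArg (fun x : Cfsg.GU (Module.finrank F W) F q =>
      ((x : Matrix.GeneralLinearGroup (Fin (Module.finrank F W)) F) :
        Matrix (Fin (Module.finrank F W)) (Fin (Module.finrank F W)) F)) h1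
  have := Fact.mk hr
  have h2 : orderOf g = r := orderOf_eq_prime hgr hg1
  have h3 : r ∣ Nat.card (Cfsg.GU (Module.finrank F W) F q) := by
    rw [← h2]; exact orderOf_dvd_natCard _
  rw [Uni.card_GU hF, hr.dvd_mul] at h3
  rcases h3 with h3 | h3
  · exact hrq (hr.dvd_of_dvd_pow h3)
  · rw [hr.prime.dvd_finset_prod_iff] at h3
    obtain ⟨i, hi, h4⟩ := h3
    exact hrj i (Finset.mem_range.1 hi) h4

/-- semidefinite version -/
structure SH {F V : Type*} [Field F] [AddCommGroup V] [Module F V] (q : ℕ) (K : V → V → F) : Prop where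
  add_left : ∀ u v w, K (u + v) w = K u w + K v w
  smul_left : ∀ (c : F) u w, K (c • u) w = c * K u w
  symm : ∀ u v, (K u v) ^ q = K v u

theorem quot_trivial {F : Type*} [Field F] [Fintype F] {q : ℕ} (hF : Fintype.card F = q ^ 2) {W : Type*}
    [AddCommGroup W] [Module F W] [FiniteDimensional F W] {K : W → W → F} (h : SH q K) {r : ℕ} (hr : r.Prime)
    (hrq : ¬ r ∣ q) (P : Submodule F W) (hP : ∀ x, x ∈ P ↔ ∀ y, K x y = 0)
    (hrj : ∀ i < Module.finrank F (W ⧸ P), ¬ r ∣ fac q i) {f : W →ₗ[F] W}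
    (hf : ∀ u v, K (f u) (f v) = K u v) (hfr : f ^ r = 1) : ∀ x, f x - x ∈ P := by
  have hq0 : q ≠ 0 := by
    rintro rfl
    rw [zero_pow two_ne_zero] at hF
    exact Fintype.card_ne_zero hF
  have hzero : ∀ {x y}, K x y = 0 → K y x = 0 := by
    intro x y hxy
    rw [← h.symm, hxy, zero_pow hq0]
  -- invariance
  have hsurj : Function.Surjective f := by
    intro x
    refine ⟨(f ^ (r - 1)) x, ?_⟩
    rw [← Module.End.mul_apply, ← pow_succ', Nat.sub_add_cancel hr.one_le, hfr]; rfl
  have hPf : P ≤ P.comap f := by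
    intro x hx
    rw [Submodule.mem_comap, hP]
    intro y
    obtain ⟨y, rfl⟩ := hsurj y
    rw [hf]
    exact (hP x).1 hx y
  have hwell : ∀ x x' y y', x - x' ∈ P → y - y' ∈ P → K x y = K x' y' := by
    intro x x' y y' hx hy
    have h1 : K x y = K x' y := by
      have h2 := h.add_left (x - x') x' y
      rw [sub_add_cancel, (hP _).1 hx, zero_add] at h2
      exact h2
    have h3 : K y x' = K y' x' := by
      have h2 := h.add_left (y - y') y' x'
      rw [sub_add_cancel, (hP _).1 hy, zero_add] at h2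
      exact h2
    rw [h1, ← h.symm y x', h3, h.symm]
  let K' : W ⧸ P → W ⧸ P → F := fun a b => K (Quotient.out a) (Quotient.out b)
  have hout : ∀ x : W, (Quotient.out (P.mkQ x) : W) - x ∈ P := by
    intro x
    rw [← Submodule.Quotient.eq]
    exact Quotient.out_eq _
  have hK' : ∀ x y, K' (P.mkQ x) (P.mkQ y) = K x y := fun x y => hwell _ _ _ _ (hout x) (hout y)
  have hIs : IsH q K' := by
    constructor
    · intro u v w
      obtain ⟨u, rfl⟩ := P.mkQ_surjective u
      obtain ⟨v, rfl⟩ := P.mkQ_surjective v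
      obtain ⟨w, rfl⟩ := P.mkQ_surjective w
      rw [← map_add, hK', hK', hK', h.add_left]
    · intro c u w
      obtain ⟨u, rfl⟩ := P.mkQ_surjective u
      obtain ⟨w, rfl⟩ := P.mkQ_surjective w
      rw [← map_smul, hK', hK', h.smul_left]
    · intro u v
      obtain ⟨u, rfl⟩ := P.mkQ_surjective u
      obtain ⟨v, rfl⟩ := P.mkQ_surjective v
      rw [hK', hK', h.symm]
    · intro u hu
      obtain ⟨u, rfl⟩ := P.mkQ_surjective u
      rw [Submodule.mkQ_apply, Submodule.Quotient.mk_eq_zero, hP]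
      intro y
      have := hu (P.mkQ y)
      rwa [hK'] at this
  have h3 : (P.mapQ P f hPf) ^ r = 1 := by
    have h4 : ∀ k : ℕ, ∀ x : W, ((P.mapQ P f hPf) ^ k) (P.mkQ x) = P.mkQ ((f ^ k) x) := by
      intro k
      induction k with
      | zero => intro x; rfl
      | succ k ih =>
        intro x
        rw [pow_succ', Module.End.mul_apply, ih, pow_succ', Module.End.mul_apply]
        rfl
    ext x
    have h6 := h4 r x
    rw [hfr] at h6
    exact h6
  have h4 : P.mapQ P f hPf = 1 := by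
    refine eq_one_of_isometry hF hIs hr hrq hrj ?_ h3
    intro u v
    obtain ⟨u, rfl⟩ := P.mkQ_surjective u
    obtain ⟨v, rfl⟩ := P.mkQ_surjective v
    have e1 : ∀ x, (P.mapQ P f hPf) (P.mkQ x) = P.mkQ (f x) := fun _ => rfl
    rw [e1, e1, hK', hK', hf]
  intro x
  have h5 := LinearMap.congr_fun h4 (P.mkQ x)
  have h6 : P.mkQ (f x) = P.mkQ x := h5
  rw [Submodule.mkQ_apply, Submodule.mkQ_apply, Submodule.Quotient.eq] at h6
  exact h6

/-- a nonzero element with `ξ ^ q = - ξ` -/
theorem exists_anti {F : Type*} [Field F] [Fintype F] {q : ℕ} (hF : Fintype.card F = q ^ 2) {ε : F}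
    (hε : ε = 1 ∨ ε = -1) : ∃ ξ : F, ξ ≠ 0 ∧ ξ ^ q * ε = ξ := by
  classical
  rcases hε with rfl | rfl
  · exact ⟨1, one_ne_zero, by simp⟩
  · have hq2 : 2 ≤ q := Uni.two_le_q hF
    obtain ⟨y, hy⟩ : ∃ y : F, y ^ q ≠ y := by
      by_contra hcon
      push Not at hcon
      have h1 : (Finset.univ : Finset F) ⊆ (Polynomial.X ^ q - Polynomial.X : Polynomial F).roots.toFinset := by
        intro y _
        rw [Multiset.mem_toFinset, Polynomial.mem_roots (FiniteField.X_pow_card_sub_X_ne_zero F (by omega))]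
        simp [hcon y]
      have h2 := Finset.card_le_card h1
      have h3 := Multiset.toFinset_card_le (Polynomial.X ^ q - Polynomial.X : Polynomial F).roots
      have h4 := Polynomial.card_roots' (Polynomial.X ^ q - Polynomial.X : Polynomial F)
      rw [FiniteField.X_pow_card_sub_X_natDegree_eq F (by omega)] at h4
      rw [Finset.card_univ, hF] at h2
      nlinarith
    refine ⟨y - y ^ q, sub_ne_zero.2 hy.symm, ?_⟩
    have h1 : (y - y ^ q) ^ q = y ^ q - y := by
      rw [sub_eq_add_neg, Uni.add_pow_q hF, Uni.neg_pow_q hF, ← pow_mul, ← pow_two, ← hF, FiniteField.pow_card,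
        ← sub_eq_add_neg]
    rw [h1]; ring

theorem sub_one_pow_three {F : Type*} [Field F] [Fintype F] {q : ℕ} (hF : Fintype.card F = q ^ 2) {V : Type*}
    [AddCommGroup V] [Module F V] [FiniteDimensional F V] {m r : ℕ} (hm : 4 ≤ m) (hV : Module.finrank F V = m)
    (hr : r.Prime) (hrq : ¬ r ∣ q) (hrj : ∀ i < m - 2, ¬ r ∣ fac q i) {H : V → V → F} (h : IsH q H)
    {B N : V →ₗ[F] V} {ε : F} (hε : ε = 1 ∨ ε = -1) (hN : N ≠ 0) (hN2 : N * N = 0)
    (hadj : ∀ x y, H (N x) y = ε * H x (N y)) (hBN : B * N = N * B) (hiso : ∀ x y, H (B x) (B y) = H x y)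
    (hB : B ^ r = 1) : (B - 1) ^ 3 = 0 := by
  have hle : N.range ≤ N.ker := by
    rintro _ ⟨x, rfl⟩
    rw [LinearMap.mem_ker, ← Module.End.mul_apply, hN2]; rfl
  have hd := N.finrank_range_add_finrank_ker
  rw [hV] at hd
  have hd1 : 1 ≤ Module.finrank F N.range := by
    by_contra h0
    have : Module.finrank F N.range = 0 := by omega
    rw [Submodule.finrank_eq_zero, LinearMap.range_eq_bot] at this
    exact hN this
  have hd2 := Submodule.finrank_mono hle
  have hBk : ∀ x ∈ N.ker, B x ∈ N.ker := by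
    intro x hx
    rw [LinearMap.mem_ker] at hx ⊢
    rw [← Module.End.mul_apply, ← hBN, Module.End.mul_apply, hx, map_zero]
  have hcBN : ∀ x, B (N x) = N (B x) := fun x => LinearMap.congr_fun hBN x
  obtain ⟨ξ, hξ0, hξ⟩ := exists_anti hF hε
  have hε2 : ε * ε = 1 := by rcases hε with rfl | rfl <;> simp
  -- top
  have step1 : ∀ x, B x - x ∈ N.ker := by
    have hSH : SH q (fun x y => ξ * H (N x) y) := by
      constructor
      · intro u v w
        simp only [map_add, h.add_left]; ring
      · intro c u w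
        simp only [map_smul, h.smul_left]; ring
      · intro u v
        rw [mul_pow, h.symm, hadj v u, ← mul_assoc]
        have : ξ ^ q = ξ * ε := by
          calc ξ ^ q = ξ ^ q * (ε * ε) := by rw [hε2, mul_one]
            _ = (ξ ^ q * ε) * ε := by ring
            _ = ξ * ε := by rw [hξ]
        rw [this]
    refine quot_trivial hF hSH hr hrq N.ker ?_ ?_ ?_ hB
    · intro x
      rw [LinearMap.mem_ker]
      constructor
      · intro hx y
        simp only [hx, h.zero_left, mul_zero]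
      · intro hx
        apply h.nondeg
        intro y
        exact (mul_eq_zero.1 (hx y)).resolve_left hξ0
    · intro i hi
      apply hrj
      have h1 := Submodule.finrank_quotient_add_finrank N.ker
      rw [hV] at h1
      omega
    · intro u v
      rw [← hcBN, hiso]
  -- the radical
  let P : Submodule F N.ker :=
    { carrier := {x | ∀ y : N.ker, H (x : V) (y : V) = 0}
      add_mem' := by
        intro a b ha hb y
        rw [Submodule.coe_add, h.add_left, ha, hb, add_zero]
      zero_mem' := by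
        intro y
        rw [Submodule.coe_zero, h.zero_left]
      smul_mem' := by
        intro c x hx y
        rw [Submodule.coe_smul, h.smul_left, hx, mul_zero] }
  have hPmem : ∀ x : N.ker, x ∈ P ↔ ∀ y : N.ker, H (x : V) (y : V) = 0 := fun _ => Iff.rfl
  have hPr : Module.finrank F N.range ≤ Module.finrank F P := by
    have h1 : N.range.comap N.ker.subtype ≤ P := by
      rintro x ⟨z, hz⟩ y
      have h2 : (x : V) = N z := hz.symm
      rw [h2, hadj, LinearMap.mem_ker.1 y.2, h.zero_right hF, mul_zero]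
    have h2 := Submodule.finrank_mono h1
    have h3 := LinearEquiv.finrank_eq (Submodule.comapSubtypeEquivOfLe hle)
    rw [h3] at h2
    exact h2
  let Bk : N.ker →ₗ[F] N.ker := B.restrict hBk
  have step2 : ∀ x : N.ker, Bk x - x ∈ P := by
    have hSH : SH q (fun x y : N.ker => H (x : V) (y : V)) :=
      ⟨fun u v w => h.add_left _ _ _, fun c u w => h.smul_left _ _ _, fun u v => h.symm _ _⟩
    refine quot_trivial hF hSH hr hrq P hPmem ?_ (fun u v => hiso u v) ?_
    · intro i hi
      apply hrj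
      have := Submodule.finrank_quotient_add_finrank P
      omega
    · rw [Module.End.pow_restrict]
      ext x
      simp [LinearMap.restrict_apply, hB]
  have hsurj : Function.Surjective B := by
    intro x
    refine ⟨(B ^ (r - 1)) x, ?_⟩
    rw [← Module.End.mul_apply, ← pow_succ', Nat.sub_add_cancel hr.one_le, hB]; rfl
  -- on the radical
  have step3 : ∀ x : N.ker, x ∈ P → B x = x := by
    intro x hx
    rw [← sub_eq_zero]
    apply h.nondeg
    intro y
    obtain ⟨y, rfl⟩ := hsurj y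
    rw [h.sub_left, hiso]
    have h1 := hx ⟨B y - y, step1 y⟩
    simp only at h1
    rw [h.sub_right hF] at h1
    rw [← neg_sub, h1, neg_zero]
  ext x
  have e1 : (B - 1) x ∈ N.ker := step1 x
  have e2 := step2 ⟨(B - 1) x, e1⟩
  have e3 := step3 _ e2
  have e4 : ((Bk ⟨(B - 1) x, e1⟩ - ⟨(B - 1) x, e1⟩ : N.ker) : V) = (B - 1) ((B - 1) x) := rfl
  rw [e4] at e3
  rw [pow_succ, pow_two, Module.End.mul_apply, Module.End.mul_apply]
  rw [LinearMap.sub_apply B 1 ((B - 1) ((B - 1) x)), e3]
  simp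

/-- powers of `A - 1` are (skew-)adjoint -/
theorem adj_pow {F : Type*} [Field F] [Fintype F] {q : ℕ} (hF : Fintype.card F = q ^ 2) {V : Type*}
    [AddCommGroup V] [Module F V] {H : V → V → F} (h : IsH q H)
    {A : V →ₗ[F] V} (hiso : ∀ x y, H (A x) (A y) = H x y) (k : ℕ) :
    ∀ x y, H (((A - 1) ^ k) x) ((A ^ k) y) = (-1) ^ k * H x (((A - 1) ^ k) y) := by
  induction k with
  | zero => intro x y; simp
  | succ k ih =>
    intro x y
    have hstep : ∀ x y, H ((A - 1) x) (A y) = - H x ((A - 1) y) := by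
      intro x y
      rw [LinearMap.sub_apply, LinearMap.sub_apply, Module.End.one_apply, Module.End.one_apply, h.sub_left,
        h.sub_right hF, hiso]
      ring
    rw [pow_succ', pow_succ' A, Module.End.mul_apply, Module.End.mul_apply, hstep]
    have hc : (A - 1) ((A ^ k) y) = (A ^ k) ((A - 1) y) := by
      have h1 : Commute (A - 1) (A ^ k) := by
        apply Commute.pow_right
        exact (Commute.refl A).sub_left (Commute.one_left A)
      exact LinearMap.congr_fun h1 y
    rw [hc, ih, ← Module.End.mul_apply ((A - 1) ^ k), ← pow_succ, ← pow_succ' (A - 1)]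
    rw [pow_succ (-1 : F)]
    ring

theorem adj_of_top {F : Type*} [Field F] [Fintype F] {q : ℕ} (hF : Fintype.card F = q ^ 2) {V : Type*}
    [AddCommGroup V] [Module F V] {H : V → V → F} (h : IsH q H)
    {A : V →ₗ[F] V} (hiso : ∀ x y, H (A x) (A y) = H x y) (k : ℕ) (hk : (A - 1) ^ (k + 1) = 0) :
    ∀ x y, H (((A - 1) ^ k) x) y = (-1) ^ k * H x (((A - 1) ^ k) y) := by
  intro x y
  rw [← adj_pow hF h hiso]
  have h1 : A * (A - 1) ^ k = (A - 1) ^ k := by
    have : (A - 1) * (A - 1) ^ k = 0 := by rw [← pow_succ', hk]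
    rw [sub_mul, one_mul, sub_eq_zero] at this
    exact this
  have h2 : ∀ j : ℕ, A ^ j * (A - 1) ^ k = (A - 1) ^ k := by
    intro j
    induction j with
    | zero => rw [pow_zero, one_mul]
    | succ j ih => rw [pow_succ, mul_assoc, h1, ih]
  have h3 : ∀ j : ℕ, ∀ x y, H ((A ^ j) x) ((A ^ j) y) = H x y := by
    intro j
    induction j with
    | zero => intro x y; rfl
    | succ j ih =>
      intro x y
      rw [pow_succ', Module.End.mul_apply, Module.End.mul_apply, hiso, ih]
  have h4 : ((A - 1) ^ k) x = (A ^ k) (((A - 1) ^ k) x) := by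
    rw [← Module.End.mul_apply, h2]
  conv_rhs => rw [h4, h3]

end Cfsg.Agent.H39.CentU
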