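import Cfsg.Agent.H39.HeckeInst
import Cfsg.Agent.H39.StChev
import Cfsg.Agent.Char.Induced
import Cfsg.Agent.Char.Regular

set_option autoImplicit false
set_option linter.unusedSectionVars false
set_option linter.unusedSimpArgs false

/-!
Constituents of the permutation character on the cosets of a subgroup.
-/

namespace Cfsg.Agent.H39.Hecke

open Cfsg Cfsg.Agent.CharBase
open scoped ComplexConjugate

/-- constituents in terms of the inner product -/
theorem constituent_iff {G : Type*} [Group G] [Fintype G] {π : G → ℂ} (hπ : IsCharacter G π) (χ : IrrCharacter G) :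
    (∃ φ : G → ℂ, IsCharacter G φ ∧ π = (χ : G → ℂ) + φ) ↔ classInner π (χ : G → ℂ) ≠ 0 := by
  classical
  constructor
  · rintro ⟨φ, hφ, rfl⟩
    obtain ⟨m, hm⟩ := classInner_natCast hφ (irr_isCharacter χ)
    rw [classInner_add_left, classInner_irr_self, hm]
    have : ((1 : ℂ) + m) = ((1 + m : ℕ) : ℂ) := by push_cast; rfl
    rw [this]
    exact_mod_cast (by omega : 1 + m ≠ 0)
  · intro h
    refine ⟨π - (χ : G → ℂ), ?_, by abel⟩
    refine isCharacter_of_classInner_nat (isClassFunction_sub (isClassFunction_of_isCharacter hπ) (irr_isClassFunction χ)) ?_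
    intro ψ
    obtain ⟨m, hm⟩ := classInner_natCast hπ (irr_isCharacter ψ)
    rw [classInner_sub_left, hm, classInner_irr]
    by_cases hc : χ = ψ
    · subst hc
      rw [if_pos rfl]
      have hm0 : m ≠ 0 := by
        rintro rfl
        exact h (by rw [hm]; simp)
      refine ⟨m - 1, ?_⟩
      rw [Nat.cast_sub (Nat.one_le_iff_ne_zero.2 hm0)]
      simp
    · rw [if_neg hc]; exact ⟨m, by simp⟩

open Cfsg.Agent.Char in
theorem classInner_ind_one {G : Type*} [Group G] [Fintype G] (B : Subgroup G) (χ : IrrCharacter G) :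
    classInner (indFun B (fun _ => 1)) (χ : G → ℂ) ≠ 0 ↔ ∑ᶠ b : B, (χ : G → ℂ) b ≠ 0 := by
  classical
  have := Fintype.ofFinite B
  rw [frobenius_reciprocity B _ _ (irr_isClassFunction χ), finsum_eq_sum_of_fintype]
  unfold classInner
  rw [mul_ne_zero_iff, and_iff_right (inv_ne_zero (card_ne_zero_complex B))]
  simp only [one_mul]
  rw [← map_sum]
  exact map_ne_zero _

end Cfsg.Agent.H39.Hecke

namespace Cfsg.Agent.H39.Hecke

open Cfsg Cfsg.Agent.CharBase Cfsg.Agent.ChevWeyl Cfsg.Agent.ChevGrp Cfsg.Agent.ChevGrp.RGrp Cfsg.Agent.H39.St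
open Cfsg.Lie Cfsg.Agent.Chev Cfsg.Agent.Char

/-- conjugacy classes of isomorphic groups -/
theorem card_conjClasses_congr {W W' : Type*} [Group W] [Group W'] (e : W ≃* W') :
    Nat.card (ConjClasses W) = Nat.card (ConjClasses W') := by
  refine Nat.card_congr ⟨ConjClasses.map e.toMonoidHom, ConjClasses.map e.symm.toMonoidHom, ?_, ?_⟩
  · intro c
    refine Quotient.inductionOn c fun a => ?_
    show ConjClasses.mk (e.symm (e a)) = ConjClasses.mk a
    rw [e.symm_apply_apply]
  · intro c
    refine Quotient.inductionOn c fun a => ?_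
    show ConjClasses.mk (e (e.symm a)) = ConjClasses.mk a
    rw [e.apply_symm_apply]

/-- the number of constituents of the permutation character on the cosets of the Borel subgroup -/
theorem card_constituents {D : ChevalleyDatum} (E : DData D) (H : Good D) {F : Type*} [Field F] [Fintype F]
    [Fintype ↥(D.group F)] (hπ : fixedPointCharacter ((D.borelSubgroup F).subgroupOf (D.group F)) =
      indFun ((D.borelSubgroup F).subgroupOf (D.group F)) (fun _ => 1)) :
    Nat.card {χ : IrrCharacter ↥(D.group F) // ∃ φ : ↥(D.group F) → ℂ, IsCharacter ↥(D.group F) φ ∧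
      fixedPointCharacter ((D.borelSubgroup F).subgroupOf (D.group F)) = (χ : ↥(D.group F) → ℂ) + φ} =
    Nat.card (ConjClasses E.rp.W) := by
  classical
  have hq : ∀ j, Nat.card ((chevG E H F).X (E.rp.p j)) = Fintype.card F := by
    intro j
    rw [chevG_X, ← Nat.card_eq_fintype_card, ← card_rootSubgroup H (E.rp.p j).2 (F := F)]
    have hle : D.rootSubgroup F (E.rp.p j) ≤ D.group F := by
      have h1 : D.rootSubgroup F (E.rp.p j) ≤ (chev E H F).U := (chev E H F).X_le_U (E.rp.pos_p j)
      rw [chev_U] at h1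
      exact h1.trans (pos_le_group E H)
    exact Nat.card_congr (Subgroup.subgroupOfEquivOfLe hle).toEquiv
  let X := hGroup (R := chevG E H F) (chevG_Grp E H) Fintype.card_pos hq
  have hfin : Finite E.rp.W := Finite.of_injective (fun w : E.rp.W => (w : Equiv.Perm (Fin D.nroots))) Subtype.val_injective
  have hX : X.B = (D.borelSubgroup F).subgroupOf (D.group F) := chevG_B E H
  have hch : IsCharacter ↥(D.group F) (fixedPointCharacter ((D.borelSubgroup F).subgroupOf (D.group F))) :=
    Cfsg.Agent.Char.Reg.isCharacter_fixedBy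
  rw [← X.card_IrrB]
  refine Nat.card_congr (Equiv.subtypeEquivRight fun χ => ?_)
  rw [constituent_iff hch, hπ, classInner_ind_one]
  show _ ↔ ∑ b ∈ X.C 1, (χ : ↥(D.group F) → ℂ) b ≠ 0
  rw [X.sum_C_one, hX]

end Cfsg.Agent.H39.Hecke
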