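import Cfsg.Agent.H39.StCount
import Cfsg.Agent.ClBN.Main
import Cfsg.Agent.ClRG.Gen

/-!
Number of `p`-elements in groups with a split BN-pair.
-/

set_option autoImplicit false

namespace Cfsg.Agent.H39.St

open Cfsg.Agent.ChevWeyl Cfsg.Agent.ChevGrp Cfsg.Agent.ChevGrp.RGrp

theorem card_pelt_sylow {l n : ℕ} {D : RootPerm l n} {G : Type*} [Group G] [Finite G] (R : RGrp D.wsys G)
    (hT : R.Grp = ⊤) {p : ℕ} [hp : Fact p.Prime] (hU : IsPGroup p R.U) (hH : ¬ p ∣ Nat.card R.H) (P : Sylow p G) :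
    Nat.card {g : G // ∃ k : ℕ, orderOf g = p ^ k} = Nat.card P ^ 2 := by
  have hI := ClRG.not_dvd_index_U' R hT p hU hH
  rw [card_pelt hT hU hI]
  congr 1
  exact ((hU.toSylow hI).card_eq_multiplicity).trans P.card_eq_multiplicity.symm

theorem HasR.card_pelt {G : Type*} [Group G] [Finite G] {p : ℕ} [hp : Fact p.Prime] (h : ClBN.HasR p G)
    (P : Sylow p G) : Nat.card {g : G // ∃ k : ℕ, orderOf g = p ^ k} = Nat.card P ^ 2 := by
  obtain ⟨l, n, D, R, h1, h2, h3⟩ := h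
  exact card_pelt_sylow R h1 h2 h3 P

end Cfsg.Agent.H39.St
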