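import Cfsg.Agent.H92.RtRR

/-!
# S2755, piece P3: `ρ` does not centralize `A`
-/

set_option autoImplicit false
set_option linter.unusedVariables false

namespace Cfsg.Agent.H39.RtP3

open Cfsg.Agent.H92.Rt

universe u

variable {G : Type u} [Group G] [Finite G] {t : G} {K : Subgroup G} {q m : ℕ} {U A : Subgroup K}
  {k s r : K} {ρ u : G}

omit [Finite G] in
theorem eq_one_of_two {a : G} {n : ℕ} (hn : Odd n) (ha : orderOf a ∣ n) (h : a * a = 1) :
    a = 1 := by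
  have h1 : orderOf a ∣ 2 := orderOf_dvd_of_pow_eq_one (by rw [pow_two, h])
  have h2 : orderOf a ∣ Nat.gcd 2 n := Nat.dvd_gcd h1 ha
  have h3 : Nat.gcd 2 n = 1 := (Nat.coprime_two_left).2 hn
  rw [h3, Nat.dvd_one] at h2
  exact orderOf_eq_one_iff.1 h2

omit [Finite G] in
theorem eq_one_of_three {a : G} {n : ℕ} (hn : ¬ 3 ∣ n) (ha : orderOf a ∣ n) (h : a ^ 3 = 1) :
    a = 1 := by
  have h1 : orderOf a ∣ 3 := orderOf_dvd_of_pow_eq_one h
  have h2 : orderOf a ∣ Nat.gcd 3 n := Nat.dvd_gcd h1 ha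
  have h3 : Nat.gcd 3 n = 1 := (Nat.Prime.coprime_iff_not_dvd Nat.prime_three).2 hn
  rw [h3, Nat.dvd_one] at h2
  exact orderOf_eq_one_iff.1 h2

omit [Finite G] in
theorem m_props (D : RD t K q m U A k s r) : Odd m ∧ ¬ 3 ∣ m ∧ 1 < m ∧ ¬ 3 ∣ 4 * m := by
  have h27 := D.kd.q27
  have hqm := D.kd.qm
  obtain ⟨N, hN⟩ := D.kd.q3
  have hN0 : N ≠ 0 := by
    rintro rfl
    rw [pow_zero] at hN
    omega
  have h3 : 3 ∣ q := by rw [hN]; exact dvd_pow_self 3 hN0
  refine ⟨D.kd.modd, ?_, by omega, ?_⟩ <;> omega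

omit [Finite G] in
theorem comm_t (D : RD t K q m U A k s r) (y : K) : (y : G) * t = t * y :=
  (D.cent y).2 ⟨y, Or.inl rfl⟩

/-- elements of order 3 commuting with `t` are in `K` -/
theorem mem_K_of_three (D : RD t K q m U A k s r) {y : G} (hy : y * t = t * y) (h3 : y ^ 3 = 1) :
    y ∈ K := by
  obtain ⟨x, hx | hx⟩ := (D.cent y).1 hy
  · rw [hx]; exact x.2
  · exfalso
    have h1 := comm_t D x
    have h4 : y ^ 3 = t * (x : G) ^ 3 := by
      have h5 : t * t = 1 := D.t2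
      have h6 : Commute t (x : G) := h1.symm
      rw [hx, h6.mul_pow, pow_succ t 2, pow_two t, h5, one_mul]
    rw [h3] at h4
    have h6 : t = ((x : G) ^ 3)⁻¹ := eq_inv_of_mul_eq_one_left h4.symm
    exact D.tK (h6 ▸ K.inv_mem (K.pow_mem x.2 3))

/-- no element of order 3 commutes with `t` and `k` -/
theorem eq_one_of_comm (D : RD t K q m U A k s r) {y : G} (hy : y * t = t * y)
    (hk : y * (k : G) = k * y) (h3 : y ^ 3 = 1) : y = 1 := by
  have hyK := mem_K_of_three D hy h3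
  have h1 : (⟨y, hyK⟩ : K) ∈ Subgroup.centralizer ({k} : Set K) := by
    rw [Subgroup.mem_centralizer_singleton_iff]
    exact Subtype.ext hk
  have h2 := Subgroup.orderOf_dvd_natCard _ h1
  rw [D.kd.cardCk, Subgroup.orderOf_mk] at h2
  exact eq_one_of_three (m_props D).2.2.2 h2 h3

/-- the four-group generated by two commuting involutions -/
def four {G : Type*} [Group G] (a b : G) (ha : a * a = 1) (hb : b * b = 1) (hab : a * b = b * a) :
    Subgroup G where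
  carrier := {g | g = 1 ∨ g = a ∨ g = b ∨ g = a * b}
  one_mem' := Or.inl rfl
  mul_mem' := by
    have h3 : a * (a * b) = b := by rw [← mul_assoc, ha, one_mul]
    have h4 : b * (a * b) = a := by rw [hab, ← mul_assoc, hb, one_mul]
    have h5 : a * b * a = b := by rw [mul_assoc, ← hab, h3]
    have h6 : a * b * b = a := by rw [mul_assoc, hb, mul_one]
    have h7 : a * b * (a * b) = 1 := by rw [mul_assoc, h4, ha]
    rintro x y (rfl | rfl | rfl | rfl) (rfl | rfl | rfl | rfl) <;>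
      simp only [Set.mem_setOf_eq, one_mul, mul_one, ha, hb, ← hab, h3, h4, h5, h6, h7, true_or,
        or_true]
  inv_mem' := by
    rintro x (rfl | rfl | rfl | rfl)
    · exact Or.inl inv_one
    · exact Or.inr (Or.inl (inv_eq_of_mul_eq_one_left ha))
    · exact Or.inr (Or.inr (Or.inl (inv_eq_of_mul_eq_one_left hb)))
    · refine Or.inr (Or.inr (Or.inr ?_))
      rw [mul_inv_rev, inv_eq_of_mul_eq_one_left ha, inv_eq_of_mul_eq_one_left hb, hab]

theorem mem_four {G : Type*} [Group G] {a b : G} {ha : a * a = 1} {hb : b * b = 1}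
    {hab : a * b = b * a} {g : G} :
    g ∈ four a b ha hb hab ↔ (g = 1 ∨ g = a ∨ g = b ∨ g = a * b) := Iff.rfl

theorem card_four {G : Type*} [Group G] {a b : G} {ha : a * a = 1} {hb : b * b = 1}
    {hab : a * b = b * a} (ha1 : a ≠ 1) (hb1 : b ≠ 1) (hne : b ≠ a) :
    Nat.card (four a b ha hb hab) = 4 := by
  have h1 : ((four a b ha hb hab : Subgroup G) : Set G) = {1, a, b, a * b} := by
    ext g
    simp only [SetLike.mem_coe, mem_four, Set.mem_insert_iff, Set.mem_singleton_iff]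
  have h2 : Nat.card (four a b ha hb hab) =
      ((four a b ha hb hab : Subgroup G) : Set G).ncard := rfl
  have h3 : (1 : G) ≠ a * b := by
    intro e
    apply hne
    calc b = (a * a) * b := by rw [ha, one_mul]
      _ = a * (a * b) := by group
      _ = a := by rw [← e, mul_one]
  have h4 : a ≠ a * b := fun e => hb1 (by simpa using e)
  have h5 : b ≠ a * b := fun e => ha1 (by simpa using e)
  rw [h2, h1, Set.ncard_insert_of_notMem, Set.ncard_insert_of_notMem,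
    Set.ncard_pair h5]
  · simp only [Set.mem_insert_iff, Set.mem_singleton_iff, not_or]
    exact ⟨hne.symm, h4⟩
  · simp only [Set.mem_insert_iff, Set.mem_singleton_iff, not_or]
    exact ⟨ha1.symm, hb1.symm, h3⟩

omit [Finite G] in
theorem tt (D : RR t K q m U A k s r ρ u) : (ρ * t * ρ⁻¹) * (ρ * t * ρ⁻¹) = 1 ∧
    t * (ρ * t * ρ⁻¹) = (ρ * t * ρ⁻¹) * t ∧ ρ * t * ρ⁻¹ ≠ 1 ∧ ρ * t * ρ⁻¹ ≠ t := by
  have ht2 := D.rd.t2
  have hk1 : (k : G) ≠ 1 := fun e => D.rd.kd.k1 (Subtype.ext e)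
  have hk := comm_t D.rd k
  refine ⟨?_, ?_, ?_, ?_⟩
  · calc (ρ * t * ρ⁻¹) * (ρ * t * ρ⁻¹) = ρ * (t * t) * ρ⁻¹ := by group
      _ = 1 := by rw [ht2]; group
  · rcases D.rt with h | h <;> rw [h]
    · exact hk.symm
    · rw [mul_assoc, hk]
  · intro e
    apply D.rd.t1
    calc t = ρ⁻¹ * (ρ * t * ρ⁻¹) * ρ := by group
      _ = 1 := by rw [e]; group
  · rcases D.rt with h | h <;> rw [h]
    · intro e
      exact D.rd.tK (e ▸ k.2)
    · intro e
      exact hk1 (by simpa using e)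

/-- the four-group `V` -/
def VG (D : RR t K q m U A k s r ρ u) : Subgroup G :=
  four t (ρ * t * ρ⁻¹) D.rd.t2 (tt D).1 (tt D).2.1

omit [Finite G] in
theorem k_mem (D : RR t K q m U A k s r ρ u) : (k : G) ∈ VG D := by
  rcases D.rt with h | h
  · exact Or.inr (Or.inr (Or.inl h.symm))
  · refine Or.inr (Or.inr (Or.inr ?_))
    rw [h, ← mul_assoc, D.rd.t2, one_mul]

omit [Finite G] in
theorem t_mem (D : RR t K q m U A k s r ρ u) : t ∈ VG D := Or.inr (Or.inl rfl)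

omit [Finite G] in
theorem t'_mem (D : RR t K q m U A k s r ρ u) : ρ * t * ρ⁻¹ ∈ VG D :=
  Or.inr (Or.inr (Or.inl rfl))

omit [Finite G] in
theorem rt3 (D : RR t K q m U A k s r ρ u) : ρ * (t * (ρ * t * ρ⁻¹)) * ρ⁻¹ = t := by
  have h1 := D.rt2
  have h2 := tt D
  calc ρ * (t * (ρ * t * ρ⁻¹)) * ρ⁻¹ = (ρ * t * ρ⁻¹) * (ρ * (ρ * t * ρ⁻¹) * ρ⁻¹) := by group
    _ = (ρ * t * ρ⁻¹) * (t * (ρ * t * ρ⁻¹)) := by rw [h1]
    _ = ((ρ * t * ρ⁻¹) * (ρ * t * ρ⁻¹)) * t := by rw [h2.2.1]; group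
    _ = t := by rw [h2.1, one_mul]

omit [Finite G] in
theorem VG_conj (D : RR t K q m U A k s r ρ u) {v : G} (hv : v ∈ VG D) :
    ρ * v * ρ⁻¹ ∈ VG D := by
  rcases hv with rfl | rfl | rfl | rfl
  · rw [mul_one, mul_inv_cancel]; exact Subgroup.one_mem _
  · exact t'_mem D
  · exact Or.inr (Or.inr (Or.inr D.rt2))
  · exact Or.inr (Or.inl (rt3 D))

omit [Finite G] in
theorem VG_comm (D : RR t K q m U A k s r ρ u) {v w : G} (hv : v ∈ VG D) (hw : w ∈ VG D) :
    v * w = w * v := by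
  have h := (tt D).2.1
  have h2 : Commute t (ρ * t * ρ⁻¹) := h
  have key : ∀ x : G, x ∈ VG D → Commute x t ∧ Commute x (ρ * t * ρ⁻¹) := by
    rintro x (rfl | rfl | rfl | rfl)
    · exact ⟨Commute.one_left _, Commute.one_left _⟩
    · exact ⟨Commute.refl _, h2⟩
    · exact ⟨h2.symm, Commute.refl _⟩
    · exact ⟨(Commute.refl t).mul_left h2.symm, h2.mul_left (Commute.refl _)⟩
  obtain ⟨h3, h4⟩ := key v hv
  rcases hw with rfl | rfl | rfl | rfl
  · exact (Commute.one_right v)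
  · exact h3
  · exact h4
  · exact h3.mul_right h4

omit [Finite G] in
theorem VG_sq (D : RR t K q m U A k s r ρ u) {v : G} (hv : v ∈ VG D) : v * v = 1 := by
  have h2 : Commute t (ρ * t * ρ⁻¹) := (tt D).2.1
  rcases hv with rfl | rfl | rfl | rfl
  · exact one_mul 1
  · exact D.rd.t2
  · exact (tt D).1
  · rw [h2.symm.mul_mul_mul_comm, D.rd.t2, (tt D).1, one_mul]

/-- `C_Y(t) = V A` -/
theorem cent_t (D : RR t K q m U A k s r ρ u) {g : G}
    (hg : ∀ a ∈ A, g * (a : G) = (a : G) * g) (ht : g * t = t * g) :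
    ∃ v ∈ VG D, ∃ a ∈ A, g = v * (a : G) := by
  -- a nontrivial element of `A`
  obtain ⟨a0, ha0, ha01⟩ : ∃ a ∈ A, a ≠ 1 := by
    by_contra hcon
    push Not at hcon
    have h1 : A = ⊥ := (Subgroup.eq_bot_iff_forall _).2 hcon
    have h2 := D.rd.kd.cardA
    rw [h1, Subgroup.card_bot] at h2
    have := (m_props D.rd).2.2.1
    omega
  have key : ∀ y : K, (∀ a ∈ A, (y : G) * (a : G) = (a : G) * y) →
      ∃ v ∈ VG D, ∃ a ∈ A, (y : G) = v * (a : G) := by
    intro y hy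
    obtain ⟨b, hb, h1 | h1⟩ := D.rd.kd.Acent a0 ha0 ha01 y (Subtype.ext (hy a0 ha0))
    · exact ⟨1, Subgroup.one_mem _, b, hb, by rw [h1, one_mul]⟩
    · exact ⟨k, k_mem D, b, hb, by rw [h1]; rfl⟩
  obtain ⟨y, hy | hy⟩ := (D.rd.cent g).1 ht
  · obtain ⟨v, hv, a, ha, h1⟩ := key y (fun a ha => by rw [← hy]; exact hg a ha)
    exact ⟨v, hv, a, ha, by rw [hy, h1]⟩
  · have h3 : (y : G) = t * g := by
      rw [hy, ← mul_assoc, D.rd.t2, one_mul]
    obtain ⟨v, hv, a, ha, h1⟩ := key y (fun a ha => by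
      rw [h3, mul_assoc, hg a ha, ← mul_assoc, ← comm_t D.rd a, mul_assoc])
    exact ⟨t * v, Subgroup.mul_mem _ (t_mem D) hv, a, ha, by rw [hy, h1, mul_assoc]⟩

/-- the centralizer of `A` -/
def YG (G : Type*) [Group G] {K : Subgroup G} (A : Subgroup K) : Subgroup G :=
  Subgroup.centralizer ((A.map K.subtype : Subgroup G) : Set G)

omit [Finite G] in
theorem mem_YG {g : G} : g ∈ YG G A ↔ ∀ a ∈ A, g * (a : G) = (a : G) * g := by
  rw [YG, Subgroup.mem_centralizer_iff]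
  constructor
  · intro h a ha
    exact (h _ ⟨a, ha, rfl⟩).symm
  · rintro h _ ⟨a, ha, rfl⟩
    exact (h a ha).symm

theorem orderOf_A (D : RD t K q m U A k s r) {a : K} (ha : a ∈ A) : orderOf (a : G) ∣ m := by
  have h1 := Subgroup.orderOf_dvd_natCard _ ha
  rw [D.kd.cardA] at h1
  rwa [Subgroup.orderOf_coe]

theorem A_comm (D : RD t K q m U A k s r) {a b : K} (ha : a ∈ A) (hb : b ∈ A) :
    (a : G) * b = b * a := by
  haveI := D.kd.Acyc
  have h1 := (IsCyclic.commutative (α := A)).is_comm.comm ⟨a, ha⟩ ⟨b, hb⟩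
  have h2 := congrArg (fun z : A => ((z : K) : G)) h1
  simpa using h2

/-- `|C(A)| = 12 m`, and `V` is the set of elements of order `≤ 2` of `C(A)` -/
theorem card_Y (D : RR t K q m U A k s r ρ u) (h : ∀ a ∈ A, ρ * (a : G) * ρ⁻¹ = (a : G))
    (hQ : ∀ {Y : Type u} [Group Y] [Finite Y] (V : Subgroup Y) (_ : Nat.card V = 4)
      (_ : ∀ v ∈ V, v * v = 1) (_ : ∀ v ∈ V, v ≠ 1 → ∀ g : Y, g * v = v * g → g ∈ V)
      (_ : ∀ v ∈ V, v ≠ 1 → ∀ w ∈ V, w ≠ 1 → ∃ g : Y, g * v * g⁻¹ = w)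
      (_ : ∀ u y : Y, u ≠ 1 → u * u = 1 → y ^ 3 = 1 → u * y * u⁻¹ = y⁻¹ → y = 1),
      Nat.card Y = 12) :
    Nat.card (YG G A) = 12 * m ∧ ∀ y ∈ YG G A, y * y = 1 → y ∈ VG D := by
  classical
  obtain ⟨hmodd, hm3, hm1, -⟩ := m_props D.rd
  set Y := YG G A with hY
  set A' : Subgroup G := A.map K.subtype with hA'
  have hρY : ρ ∈ Y := mem_YG.2 fun a ha => by
    calc ρ * (a : G) = (ρ * (a : G) * ρ⁻¹) * ρ := by group
      _ = a * ρ := by rw [h a ha]
  have hρY' : ρ⁻¹ ∈ Y := Y.inv_mem hρY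
  have htY : t ∈ Y := mem_YG.2 fun a ha => (comm_t D.rd a).symm
  have hVY : VG D ≤ Y := by
    rintro v (rfl | rfl | rfl | rfl)
    · exact Y.one_mem
    · exact htY
    · exact Y.mul_mem (Y.mul_mem hρY htY) hρY'
    · exact Y.mul_mem htY (Y.mul_mem (Y.mul_mem hρY htY) hρY')
  have hAY : A' ≤ Y := by
    rintro _ ⟨a, ha, rfl⟩
    exact mem_YG.2 fun b hb => A_comm D.rd ha hb
  have hcomm : ∀ y ∈ Y, ∀ a ∈ A', y * a = a * y := by
    rintro y hy _ ⟨a, ha, rfl⟩
    exact mem_YG.1 hy a ha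
  have hord : ∀ a ∈ A', orderOf a ∣ m := by
    rintro _ ⟨a, ha, rfl⟩
    exact orderOf_A D.rd ha
  have hcA : Nat.card A' = m := by
    rw [hA', Subgroup.card_map_of_injective K.subtype_injective, D.rd.kd.cardA]
  set N : Subgroup Y := A'.subgroupOf Y with hN
  haveI hNn : N.Normal := ⟨fun n hn g => by
    rw [hN, Subgroup.mem_subgroupOf] at hn ⊢
    have h1 := hcomm g g.2 n hn
    rw [Subgroup.coe_mul, Subgroup.coe_mul, Subgroup.coe_inv, h1, mul_inv_cancel_right]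
    exact hn⟩
  have hcN : Nat.card N = m := by
    rw [hN, Nat.card_congr (Subgroup.subgroupOfEquivOfLe hAY).toEquiv, hcA]
  have hVA : ∀ v ∈ VG D, v ∈ A' → v = 1 := fun v hv hvA =>
    eq_one_of_two hmodd (hord v hvA) (VG_sq D hv)
  -- centralizers
  have hcent0 : ∀ g ∈ Y, g * t = t * g → ∃ v ∈ VG D, ∃ a ∈ A', g = v * a := by
    intro g hg hgt
    obtain ⟨v, hv, a, ha, h1⟩ := cent_t D (mem_YG.1 hg) hgt
    exact ⟨v, hv, a, ⟨a, ha, rfl⟩, h1⟩
  have hstep : ∀ w : G, (∀ g ∈ Y, g * w = w * g → ∃ v ∈ VG D, ∃ a ∈ A', g = v * a) →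
      ∀ g ∈ Y, g * (ρ * w * ρ⁻¹) = (ρ * w * ρ⁻¹) * g → ∃ v ∈ VG D, ∃ a ∈ A', g = v * a := by
    intro w hw g hg hgw
    have h1 : (ρ⁻¹ * g * ρ) * w = w * (ρ⁻¹ * g * ρ) := by
      calc (ρ⁻¹ * g * ρ) * w = ρ⁻¹ * (g * (ρ * w * ρ⁻¹)) * ρ := by group
        _ = ρ⁻¹ * ((ρ * w * ρ⁻¹) * g) * ρ := by rw [hgw]
        _ = w * (ρ⁻¹ * g * ρ) := by group
    obtain ⟨v, hv, a, ha, h2⟩ := hw _ (Y.mul_mem (Y.mul_mem hρY' hg) hρY) h1
    refine ⟨ρ * v * ρ⁻¹, VG_conj D hv, a, ha, ?_⟩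
    calc g = ρ * (ρ⁻¹ * g * ρ) * ρ⁻¹ := by group
      _ = ρ * v * (a * ρ⁻¹) := by rw [h2]; group
      _ = ρ * v * (ρ⁻¹ * a) := by rw [hcomm _ hρY' a ha]
      _ = ρ * v * ρ⁻¹ * a := by group
  have hcent : ∀ w ∈ VG D, w ≠ 1 → ∀ g ∈ Y, g * w = w * g → ∃ v ∈ VG D, ∃ a ∈ A', g = v * a := by
    rintro w (rfl | rfl | rfl | rfl) hw1
    · exact absurd rfl hw1
    · exact hcent0
    · exact hstep _ hcent0
    · rw [← D.rt2]
      exact hstep _ (hstep _ hcent0)
  -- the image of `V`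
  set π : Y →* Y ⧸ N := QuotientGroup.mk' N with hπ
  set Vb : Subgroup (Y ⧸ N) := ((VG D).subgroupOf Y).map π with hVb
  have hπ1 : ∀ y : Y, π y = 1 ↔ (y : G) ∈ A' := by
    intro y
    rw [hπ, QuotientGroup.mk'_apply, QuotientGroup.eq_one_iff, hN, Subgroup.mem_subgroupOf]
  have hπeq : ∀ y y' : Y, π y = π y' → ∃ a ∈ A', (y' : G) = y * a := by
    intro y y' hyy
    have h1 : π (y⁻¹ * y') = 1 := by rw [map_mul, map_inv, hyy, inv_mul_cancel]
    rw [hπ1] at h1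
    exact ⟨_, h1, by simp⟩
  have hmemVb : ∀ v : G, ∀ hv : v ∈ VG D, π ⟨v, hVY hv⟩ ∈ Vb := fun v hv =>
    ⟨⟨v, hVY hv⟩, hv, rfl⟩
  have hcard4 : Nat.card Vb = 4 := by
    have h1 : Nat.card Vb = Nat.card ((VG D).subgroupOf Y) := by
      have h2 : ((π.comp ((VG D).subgroupOf Y).subtype)).range = Vb := by
        rw [MonoidHom.range_comp, Subgroup.range_subtype]
      rw [← h2]
      refine (Nat.card_congr (MonoidHom.ofInjective ?_).toEquiv).symm
      rw [injective_iff_map_eq_one]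
      rintro ⟨v, hv⟩ hv1
      have h3 := (hπ1 v).1 hv1
      have h4 := hVA _ hv h3
      exact Subtype.ext (Subtype.ext h4)
    rw [h1, Nat.card_congr (Subgroup.subgroupOfEquivOfLe hVY).toEquiv]
    exact card_four D.rd.t1 (tt D).2.2.1 (tt D).2.2.2
  have hρt : ∀ v ∈ VG D, v ≠ 1 → v = t ∨ v = ρ * t * ρ⁻¹ ∨ v = ρ * (ρ * t * ρ⁻¹) * ρ⁻¹ := by
    rintro v (rfl | rfl | rfl | rfl) hv1
    · exact absurd rfl hv1
    · exact Or.inl rfl
    · exact Or.inr (Or.inl rfl)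
    · exact Or.inr (Or.inr D.rt2.symm)
  have hV2 : ∀ v ∈ Vb, v * v = 1 := by
    rintro _ ⟨v, hv, rfl⟩
    have hvV : (v : G) ∈ VG D := hv
    rw [← map_mul, hπ1, Subgroup.coe_mul, VG_sq D hvV]
    exact A'.one_mem
  have hC : ∀ v ∈ Vb, v ≠ 1 → ∀ g : Y ⧸ N, g * v = v * g → g ∈ Vb := by
    rintro _ ⟨v, hv, rfl⟩ hv1 g hg
    obtain ⟨g, rfl⟩ := QuotientGroup.mk'_surjective N g
    change π g * π v = π v * π g at hg
    have hvV : (v : G) ∈ VG D := hv
    have hv1' : (v : G) ≠ 1 := fun e => hv1 (by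
      rw [show v = 1 from Subtype.ext e, map_one])
    obtain ⟨a, ha, h1⟩ := hπeq (v * g) (g * v) (by rw [map_mul, map_mul, hg])
    rw [Subgroup.coe_mul, Subgroup.coe_mul] at h1
    have hga := hcomm _ g.2 a ha
    have hva := hcomm _ v.2 a ha
    have h2 : (g : G) * v * (g : G)⁻¹ = v * a := by
      rw [h1, mul_assoc (v : G) g a, hga]; group
    have h3 : ((v : G) * a) * (v * a) = 1 := by
      rw [← h2]
      calc (g : G) * v * (g : G)⁻¹ * (g * v * (g : G)⁻¹) = g * (v * v) * (g : G)⁻¹ := by group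
        _ = 1 := by rw [VG_sq D hvV]; group
    have h4 : a * a = 1 := by
      calc a * a = (v * v) * (a * a) := by rw [VG_sq D hvV, one_mul]
        _ = v * (v * a) * a := by group
        _ = v * (a * v) * a := by rw [hva]
        _ = 1 := by rw [← h3]; group
    have h5 := eq_one_of_two hmodd (hord a ha) h4
    rw [h5, mul_one] at h1
    obtain ⟨w, hw, b, hb, h6⟩ := hcent v hvV hv1' g g.2 h1
    have h7 : g = (⟨w, hVY hw⟩ : Y) * ⟨b, hAY hb⟩ := Subtype.ext h6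
    change π g ∈ Vb
    rw [h7, map_mul, (hπ1 ⟨b, hAY hb⟩).2 hb, mul_one]
    exact hmemVb w hw
  have hconjt : ∀ v ∈ VG D, v ≠ 1 → ∃ g ∈ Y, g * t * g⁻¹ = v := by
    intro v hv hv1
    rcases hρt v hv hv1 with e | e | e
    · exact ⟨1, Y.one_mem, by rw [e]; group⟩
    · exact ⟨ρ, hρY, e.symm⟩
    · exact ⟨ρ * ρ, Y.mul_mem hρY hρY, by rw [e]; group⟩
  have hinv : ∀ v ∈ Vb, v ≠ 1 → ∀ w ∈ Vb, w ≠ 1 → ∃ g : Y ⧸ N, g * v * g⁻¹ = w := by
    rintro _ ⟨v, hv, rfl⟩ hv1 _ ⟨w, hw, rfl⟩ hw1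
    obtain ⟨g, hg, h1⟩ := hconjt v hv (fun e => hv1 (by
      rw [show v = 1 from Subtype.ext e, map_one]))
    obtain ⟨g', hg', h2⟩ := hconjt w hw (fun e => hw1 (by
      rw [show w = 1 from Subtype.ext e, map_one]))
    refine ⟨π (⟨g', hg'⟩ * ⟨g, hg⟩⁻¹), ?_⟩
    rw [← map_inv, ← map_mul, ← map_mul]
    congr 1
    apply Subtype.ext
    simp only [Subgroup.coe_mul, Subgroup.coe_inv]
    rw [← h1, ← h2]; group
  have h3 : ∀ u y : Y ⧸ N, u ≠ 1 → u * u = 1 → y ^ 3 = 1 → u * y * u⁻¹ = y⁻¹ → y = 1 := by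
    intro ub yb hu1 hu2 hy3 hinvuy
    obtain ⟨u0, rfl⟩ := QuotientGroup.mk'_surjective N ub
    obtain ⟨y0, rfl⟩ := QuotientGroup.mk'_surjective N yb
    change π u0 ≠ 1 at hu1
    change π u0 * π u0 = 1 at hu2
    change π y0 ^ 3 = 1 at hy3
    change π u0 * π y0 * (π u0)⁻¹ = (π y0)⁻¹ at hinvuy
    change π y0 = 1
    have hAm : ∀ a ∈ A', a ^ m = 1 := fun a ha => orderOf_dvd_iff_pow_eq_one.1 (hord a ha)
    have hu1' : π (u0 ^ m) = π u0 := by
      obtain ⟨j, hj⟩ := hmodd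
      rw [map_pow, hj, pow_succ, pow_mul, pow_two, hu2, one_pow, one_mul]
    have hu2' : (u0 ^ m : Y) * (u0 ^ m : Y) = 1 := by
      have h5 : ((u0 * u0 : Y) : G) ∈ A' := (hπ1 _).1 (by rw [map_mul, hu2])
      apply Subtype.ext
      have h6 := hAm _ h5
      rw [← pow_two, ← pow_mul, mul_comm, pow_mul, pow_two]
      simpa using h6
    obtain ⟨j, hj⟩ : ∃ j, m * m = 3 * j + 1 := by
      have : m % 3 = 1 ∨ m % 3 = 2 := by omega
      have h7 : (m * m) % 3 = 1 := by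
        rcases this with h | h <;> rw [Nat.mul_mod, h]
      exact ⟨m * m / 3, by omega⟩
    have hy1' : π (y0 ^ (m * m)) = π y0 := by
      rw [map_pow, hj, pow_succ, pow_mul, hy3, one_pow, one_mul]
    have hy3' : (y0 ^ (m * m) : Y) ^ 3 = 1 := by
      have h5 : ((y0 ^ 3 : Y) : G) ∈ A' := (hπ1 _).1 (by rw [map_pow, hy3])
      apply Subtype.ext
      have h6 := hAm _ h5
      rw [← pow_mul, mul_comm, pow_mul, pow_mul]
      have h7 : ((y0 ^ 3) ^ m : Y) = 1 := Subtype.ext (by simpa using h6)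
      rw [h7, one_pow]
    obtain ⟨a, ha, h8⟩ := hπeq (y0 ^ (m * m))⁻¹ (u0 ^ m * y0 ^ (m * m) * (u0 ^ m)⁻¹) (by
      rw [map_mul, map_mul, map_inv, map_inv, hu1', hy1', hinvuy])
    set u1 : Y := u0 ^ m with hu1d
    set y1 : Y := y0 ^ (m * m) with hy1d
    simp only [Subgroup.coe_mul, Subgroup.coe_inv] at h8
    have hy3G : (y1 : G) ^ 3 = 1 := by
      have := congrArg (fun z : Y => (z : G)) hy3'
      simpa using this
    have hya : Commute (y1 : G)⁻¹ a := (hcomm _ (Y.inv_mem y1.2) a ha)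
    have h9 : a ^ 3 = 1 := by
      have h10 : ((u1 : G) * y1 * (u1 : G)⁻¹) ^ 3 = 1 := by
        rw [conj_pow, hy3G]; group
      rw [h8, hya.mul_pow, inv_pow, hy3G, inv_one, one_mul] at h10
      exact h10
    have h11 := eq_one_of_three hm3 (hord a ha) h9
    rw [h11, mul_one] at h8
    have h12 : (u1 : G) ≠ 1 := by
      intro e
      apply hu1
      rw [← hu1', Subtype.ext (show (u1 : G) = ((1 : Y) : G) from e), map_one]
    have h13 : (u1 : G) * u1 = 1 := by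
      have := congrArg (fun z : Y => (z : G)) hu2'
      simpa using this
    have h14 := D.rd.no3 u1 y1 h12 h13 hy3G h8
    rw [← hy1', Subtype.ext (show (y1 : G) = ((1 : Y) : G) from h14), map_one]
  have h12 : Nat.card (Y ⧸ N) = 12 := hQ Vb hcard4 hV2 hC hinv h3
  refine ⟨?_, ?_⟩
  · rw [Subgroup.card_eq_card_quotient_mul_card_subgroup N, h12, hcN]
  · -- `Vb` is normal
    have hρM : π ⟨ρ, hρY⟩ ∈ Subgroup.normalizer (Vb : Set (Y ⧸ N)) := by
      haveI : Finite ((Vb : Set (Y ⧸ N))) := inferInstanceAs (Finite Vb)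
      refine Subgroup.mem_normalizer_fintype (S := (Vb : Set (Y ⧸ N))) ?_
      rintro _ ⟨v, hv, rfl⟩
      rw [← map_inv, ← map_mul, ← map_mul]
      exact hmemVb _ (VG_conj D hv)
    have hVM : Vb ≤ Subgroup.normalizer (Vb : Set (Y ⧸ N)) := Subgroup.le_normalizer
    have hM : Subgroup.normalizer (Vb : Set (Y ⧸ N)) = ⊤ := by
      have hne : Nat.card (Subgroup.normalizer (Vb : Set (Y ⧸ N))) ≠ 4 := by
        intro e
        have h20 := Subgroup.eq_of_le_of_card_ge hVM (by rw [e, hcard4])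
        rw [← h20] at hρM
        obtain ⟨w, hw, hwρ⟩ := hρM
        obtain ⟨a, ha, h21⟩ := hπeq w ⟨ρ, hρY⟩ hwρ
        change ρ = w * a at h21
        apply (tt D).2.2.2
        have hat := hcomm t htY a ha
        have hwt := VG_comm D (show (w : G) ∈ VG D from hw) (t_mem D)
        rw [h21]
        calc (w : G) * a * t * ((w : G) * a)⁻¹ = w * (a * t) * a⁻¹ * (w : G)⁻¹ := by group
          _ = w * (t * a) * a⁻¹ * (w : G)⁻¹ := by rw [hat]
          _ = (w * t) * (w : G)⁻¹ := by group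
          _ = t := by rw [hwt]; group
      have h22 : Nat.card Vb ∣ Nat.card (Subgroup.normalizer (Vb : Set (Y ⧸ N))) :=
        Subgroup.card_dvd_of_le hVM
      have h23 : Nat.card (Subgroup.normalizer (Vb : Set (Y ⧸ N))) ∣ 12 := by
        rw [← h12]; exact Subgroup.card_subgroup_dvd_card _
      rw [hcard4] at h22
      obtain ⟨j, hj⟩ := h22
      have h24 := Nat.le_of_dvd (by norm_num) h23
      apply Subgroup.eq_top_of_card_eq
      rw [h12]
      rw [hj] at h23 h24 hne ⊢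
      have hj3 : j ≤ 3 := by omega
      interval_cases j <;> first | rfl | (exfalso; revert h23; norm_num; done) | (exfalso; exact hne rfl)
    haveI hVn : Vb.Normal := Subgroup.normalizer_eq_top_iff.1 hM
    intro y hy hyy
    have hidx : Vb.index = 3 := by
      have := Vb.card_mul_index
      rw [hcard4, h12] at this
      omega
    have h15 := Vb.pow_index_mem (π ⟨y, hy⟩)
    rw [hidx] at h15
    have h16 : (π ⟨y, hy⟩) ^ 3 = π ⟨y, hy⟩ := by
      rw [← map_pow]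
      congr 1
      apply Subtype.ext
      change y ^ 3 = y
      rw [pow_succ, pow_two, hyy, one_mul]
    rw [h16] at h15
    obtain ⟨v, hv, hvy⟩ := h15
    obtain ⟨a, ha, h17⟩ := hπeq v ⟨y, hy⟩ hvy
    have hvV : (v : G) ∈ VG D := hv
    change y = v * a at h17
    have hva := hcomm _ v.2 a ha
    have h18 : a * a = 1 := by
      calc a * a = (v * v) * (a * a) := by rw [VG_sq D hvV, one_mul]
        _ = v * (v * a) * a := by group
        _ = v * (a * v) * a := by rw [hva]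
        _ = (v * a) * (v * a) := by group
        _ = 1 := by rw [← h17, hyy]
    have h19 := eq_one_of_two hmodd (hord a ha) h18
    rw [h17, h19, mul_one]
    exact hvV

end Cfsg.Agent.H39.RtP3
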