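import Mathlib

/-!
# S2755, piece P3: the group theory of the centralizer of an element of order 3
-/

set_option autoImplicit false

namespace Cfsg.Agent.H39.RtP3

/-- Burnside's normal `p`-complement, with an explicit Sylow subgroup -/
theorem exists_compl {C : Type*} [Group C] [Finite C] (p : ℕ) [Fact p.Prime] (P : Subgroup C)
    (hP : IsPGroup p P) (hi : ¬ p ∣ P.index)
    (hN : Subgroup.normalizer (P : Set C) ≤ Subgroup.centralizer (P : Set C)) :
    ∃ W : Subgroup C, W.Normal ∧ Nat.card W = P.index ∧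
      ∀ g : C, (orderOf g).Coprime p → g ∈ W := by
  set S : Sylow p C := hP.toSylow hi with hS
  have hSP : (S : Subgroup C) = P := IsPGroup.toSylow_coe hP hi
  have hN' : Subgroup.normalizer ((S : Subgroup C) : Set C) ≤
      Subgroup.centralizer ((S : Subgroup C) : Set C) := by
    rw [hSP]; exact hN
  refine ⟨(MonoidHom.transferSylow S hN').ker, inferInstance, ?_, ?_⟩
  · have h1 := (MonoidHom.ker_transferSylow_isComplement' S hN').card_mul
    have h2 := P.card_mul_index
    have h0 : Nat.card (S : Subgroup C) = Nat.card P := by rw [hSP]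
    rw [h0] at h1
    have h3 : 0 < Nat.card P := Nat.card_pos
    rw [← h2, mul_comm] at h1
    exact Nat.eq_of_mul_eq_mul_left h3 h1
  · intro g hg
    rw [MonoidHom.mem_ker]
    have h1 : orderOf (MonoidHom.transferSylow S hN' g) ∣ orderOf g :=
      orderOf_map_dvd _ g
    have h2 : IsPGroup p S := S.2
    obtain ⟨k, hk⟩ := h2 (MonoidHom.transferSylow S hN' g)
    have h3 : orderOf (MonoidHom.transferSylow S hN' g) ∣ p ^ k :=
      orderOf_dvd_of_pow_eq_one hk
    have h4 := Nat.dvd_gcd h1 h3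
    rw [Nat.Coprime.gcd_eq_one (hg.pow_right k), Nat.dvd_one, orderOf_eq_one_iff] at h4
    exact h4

theorem lemmaL {C : Type*} [Group C] [Finite C] {q N c : ℕ} (hq : q = 3 ^ N)
    (hcard : Nat.card C = 2 * q * c) (hc : Odd c) (hc3 : ¬ 3 ∣ c) {t : C} (ht1 : t ≠ 1)
    (ht2 : t * t = 1) (U : Subgroup C) (hU : Nat.card U = q)
    (hUab : ∀ x ∈ U, ∀ y ∈ U, x * y = y * x) (hUt : ∀ x ∈ U, x * t = t * x)
    (hct : ∀ g : C, g * t = t * g → g ∈ U ∨ t * g ∈ U)
    (hodd : ∀ v : C, v ≠ 1 → v * v = 1 → Odd (orderOf (v * t))) :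
    ∃ O : Subgroup C, O.Normal ∧ Nat.card O ∣ c ∧ (∀ x ∈ O, ∀ y ∈ O, x * y = y * x) ∧
      ∀ g : C, (orderOf g).Coprime 6 → g ∈ O := by
  classical
  haveI : Fact (Nat.Prime 3) := ⟨Nat.prime_three⟩
  have hq0 : 0 < q := by rw [hq]; positivity
  have hqodd : Odd q := by rw [hq]; exact Odd.pow (by decide)
  -- Sylow 3
  have hUi : U.index = 2 * c := by
    have h1 := U.card_mul_index
    rw [hU, hcard] at h1
    apply Nat.eq_of_mul_eq_mul_left hq0
    rw [h1]; ring
  have hU3 : IsPGroup 3 U := IsPGroup.of_card (n := N) (by rw [hU, hq])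
  have htinv : t⁻¹ = t := inv_eq_of_mul_eq_one_left ht2
  have hUN : Subgroup.normalizer (U : Set C) ≤ Subgroup.centralizer (U : Set C) := by
    intro n hn
    have hcenU : ∀ x : C, x ∈ Subgroup.centralizer (U : Set C) ↔ ∀ y ∈ U, x * y = y * x := by
      intro x
      rw [Subgroup.mem_centralizer_iff]
      exact ⟨fun h y hy => (h y hy).symm, fun h y hy => (h y hy).symm⟩
    have htZ : t ∈ Subgroup.centralizer (U : Set C) := (hcenU t).2 fun y hy => (hUt y hy).symm
    have hv2 : (n * t * n⁻¹) * (n * t * n⁻¹) = 1 := by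
      calc (n * t * n⁻¹) * (n * t * n⁻¹) = n * (t * t) * n⁻¹ := by group
        _ = 1 := by rw [ht2]; group
    have hv1 : n * t * n⁻¹ ≠ 1 := by
      intro e
      apply ht1
      calc t = n⁻¹ * (n * t * n⁻¹) * n := by group
        _ = 1 := by rw [e]; group
    have hvZ : n * t * n⁻¹ ∈ Subgroup.centralizer (U : Set C) := by
      rw [hcenU]
      intro y hy
      have h1 : n⁻¹ * y * n ∈ U := by
        have := (Subgroup.mem_normalizer_iff.1 (Subgroup.inv_mem _ hn) y).1 hy
        simpa using this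
      have h2 := hUt _ h1
      calc n * t * n⁻¹ * y = n * (t * (n⁻¹ * y * n)) * n⁻¹ := by group
        _ = n * ((n⁻¹ * y * n) * t) * n⁻¹ := by rw [h2]
        _ = y * (n * t * n⁻¹) := by group
    have hwodd := hodd _ hv1 hv2
    set w := n * t * n⁻¹ * t with hw
    have hwZ : w ∈ Subgroup.centralizer (U : Set C) := Subgroup.mul_mem _ hvZ htZ
    obtain ⟨j, hj⟩ := hwodd
    -- `z = w ^ (j + 1)` is the square root of `w`
    have hz2 : w ^ (j + 1) * w ^ (j + 1) = w := by
      rw [← pow_add, show j + 1 + (j + 1) = (2 * j + 1) + 1 by ring, ← hj, pow_succ,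
        pow_orderOf_eq_one, one_mul]
    have htw : t * w * t⁻¹ = w⁻¹ := by
      have h1 : (n * t * n⁻¹)⁻¹ = n * t * n⁻¹ := inv_eq_of_mul_eq_one_left hv2
      rw [hw, mul_inv_rev, htinv, h1]
      rw [mul_assoc, mul_assoc (n * t * n⁻¹), ht2, mul_one]
    have htz : t * w ^ (j + 1) * t⁻¹ = (w ^ (j + 1))⁻¹ := by
      rw [← conj_pow, htw, inv_pow]
    have hz : w ^ (j + 1) * t * (w ^ (j + 1))⁻¹ = n * t * n⁻¹ := by
      rw [← htz, htinv]
      calc w ^ (j + 1) * t * (t * w ^ (j + 1) * t) = w ^ (j + 1) * (t * t) * w ^ (j + 1) * t := by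
            group
        _ = (w ^ (j + 1) * w ^ (j + 1)) * t := by rw [ht2]; group
        _ = n * t * n⁻¹ * (t * t) := by rw [hz2, hw]; group
        _ = n * t * n⁻¹ := by rw [ht2, mul_one]
    have hzZ : w ^ (j + 1) ∈ Subgroup.centralizer (U : Set C) := Subgroup.pow_mem _ hwZ _
    have hcomm : ((w ^ (j + 1))⁻¹ * n) * t = t * ((w ^ (j + 1))⁻¹ * n) := by
      calc ((w ^ (j + 1))⁻¹ * n) * t = (w ^ (j + 1))⁻¹ * (n * t * n⁻¹) * n := by group
        _ = (w ^ (j + 1))⁻¹ * (w ^ (j + 1) * t * (w ^ (j + 1))⁻¹) * n := by rw [hz]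
        _ = t * ((w ^ (j + 1))⁻¹ * n) := by group
    have hUZ : U ≤ Subgroup.centralizer (U : Set C) := fun x hx =>
      (hcenU x).2 fun y hy => hUab x hx y hy
    have h5 : (w ^ (j + 1))⁻¹ * n ∈ Subgroup.centralizer (U : Set C) := by
      rcases hct _ hcomm with h | h
      · exact hUZ h
      · have h6 := Subgroup.mul_mem _ (Subgroup.inv_mem _ htZ) (hUZ h)
        rwa [inv_mul_cancel_left] at h6
    have h7 := Subgroup.mul_mem _ hzZ h5
    rwa [mul_inv_cancel_left] at h7
  obtain ⟨W, hWn, hWc, hW⟩ := exists_compl 3 U hU3 (by rw [hUi]; omega) hUN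
  -- Sylow 2
  have ho2 : orderOf t = 2 := orderOf_eq_prime (by rw [pow_two, ht2]) ht1
  have hTc : Nat.card (Subgroup.zpowers t) = 2 := by rw [Nat.card_zpowers, ho2]
  have hTi : (Subgroup.zpowers t).index = q * c := by
    have h1 := (Subgroup.zpowers t).card_mul_index
    rw [hTc, hcard] at h1
    apply Nat.eq_of_mul_eq_mul_left (two_pos)
    rw [h1]; ring
  have hqc : Odd (q * c) := hqodd.mul hc
  have hTmem : ∀ x, x ∈ Subgroup.zpowers t → x = 1 ∨ x = t := by
    intro x hx
    rw [Subgroup.mem_zpowers_iff] at hx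
    obtain ⟨n, rfl⟩ := hx
    rcases Int.even_or_odd' n with ⟨j, hj | hj⟩
    · left; rw [hj, zpow_mul, zpow_two, ht2, one_zpow]
    · right; rw [hj, zpow_add, zpow_mul, zpow_two, ht2, one_zpow, one_mul, zpow_one]
  obtain ⟨C0, hC0n, hC0c, hC0⟩ := exists_compl 2 (Subgroup.zpowers t)
    (IsPGroup.of_card (n := 1) (by rw [hTc, pow_one]))
    (by rw [hTi]; exact hqc.not_two_dvd_nat) (by
      intro n hn
      rw [Subgroup.mem_centralizer_iff]
      intro x hx
      have h1 := (Subgroup.mem_normalizer_iff.1 hn t).1 (Subgroup.mem_zpowers t)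
      have h2 : n * t * n⁻¹ = t := by
        rcases hTmem _ h1 with h | h
        · exfalso
          apply ht1
          calc t = n⁻¹ * (n * t * n⁻¹) * n := by group
            _ = 1 := by rw [h]; group
        · exact h
      have h3 : n * t = t * n := by
        calc n * t = (n * t * n⁻¹) * n := by group
          _ = t * n := by rw [h2]
      rcases hTmem x hx with rfl | rfl
      · rw [one_mul, mul_one]
      · exact h3.symm)
  haveI := hWn
  haveI := hC0n
  have hOc : Nat.card (W ⊓ C0 : Subgroup C) ∣ c := by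
    have h1 : Nat.card (W ⊓ C0 : Subgroup C) ∣ 2 * c := by
      rw [← hUi, ← hWc]; exact Subgroup.card_dvd_of_le inf_le_left
    have h2 : Nat.card (W ⊓ C0 : Subgroup C) ∣ q * c := by
      rw [← hTi, ← hC0c]; exact Subgroup.card_dvd_of_le inf_le_right
    have h3 := Nat.dvd_gcd h1 h2
    rw [Nat.gcd_mul_right, (Nat.coprime_two_left.2 hqodd).gcd_eq_one, one_mul] at h3
    exact h3
  have hc6 : c.Coprime 6 := by
    have h1 : c.Coprime 2 := Nat.coprime_two_right.2 hc
    have h2 : c.Coprime 3 := ((Nat.Prime.coprime_iff_not_dvd Nat.prime_three).2 hc3).symm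
    exact Nat.Coprime.mul_right h1 h2
  have hoO : ∀ x ∈ (W ⊓ C0 : Subgroup C), orderOf x ∣ c := fun x hx =>
    (Subgroup.orderOf_dvd_natCard _ hx).trans hOc
  have hfpf : ∀ x ∈ (W ⊓ C0 : Subgroup C), x * t = t * x → x = 1 := by
    intro x hx hxt
    have hqx : x ^ q = 1 → x = 1 := by
      intro h
      have h1 := Nat.dvd_gcd (orderOf_dvd_of_pow_eq_one h) (hoO x hx)
      have h2 : Nat.gcd q c = 1 := by
        rw [hq]
        exact Nat.Coprime.pow_left _ ((Nat.Prime.coprime_iff_not_dvd Nat.prime_three).2 hc3)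
      rw [h2, Nat.dvd_one, orderOf_eq_one_iff] at h1
      exact h1
    rcases hct x hxt with h | h
    · apply hqx
      rw [← hU]
      exact orderOf_dvd_iff_pow_eq_one.1 (Subgroup.orderOf_dvd_natCard _ h)
    · exfalso
      have h1 : (t * x) ^ q = 1 := by
        rw [← hU]
        exact orderOf_dvd_iff_pow_eq_one.1 (Subgroup.orderOf_dvd_natCard _ h)
      have h2 : Commute t x := hxt.symm
      rw [h2.mul_pow] at h1
      have h3 : t ^ q = t := by
        obtain ⟨j, hj⟩ := hqodd
        rw [hj, pow_succ, pow_mul, pow_two, ht2, one_pow, one_mul]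
      rw [h3] at h1
      have h4 : t = (x ^ q)⁻¹ := eq_inv_of_mul_eq_one_left h1
      have h5 : t ∈ (W ⊓ C0 : Subgroup C) := by
        rw [h4]; exact Subgroup.inv_mem _ (Subgroup.pow_mem _ hx q)
      have h6 := hoO t h5
      rw [ho2] at h6
      exact hc.not_two_dvd_nat h6
  refine ⟨W ⊓ C0, inferInstance, hOc, ?_, ?_⟩
  · have hφ : MonoidHom.FixedPointFree
        ((MulAut.conjNormal t : MulAut (W ⊓ C0 : Subgroup C)).toMonoidHom) := by
      intro x hx
      have h1 := congrArg (fun z : (W ⊓ C0 : Subgroup C) => (z : C)) hx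
      have h2 : t * (x : C) * t⁻¹ = x := by
        rw [← MulAut.conjNormal_apply]; exact h1
      apply Subtype.ext
      apply hfpf x x.2
      calc (x : C) * t = (t * (x : C) * t⁻¹) * t := by rw [h2]
        _ = t * x := by group
    have hinv : Function.Involutive
        ((MulAut.conjNormal t : MulAut (W ⊓ C0 : Subgroup C)).toMonoidHom) := by
      intro x
      apply Subtype.ext
      change ((MulAut.conjNormal t (MulAut.conjNormal t x) : (W ⊓ C0 : Subgroup C)) : C) = x
      rw [MulAut.conjNormal_apply, MulAut.conjNormal_apply]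
      calc t * (t * (x : C) * t⁻¹) * t⁻¹ = (t * t) * x * (t * t)⁻¹ := by group
        _ = x := by rw [ht2]; group
    intro x hx y hy
    have h1 := MonoidHom.FixedPointFree.commute_all_of_involutive hφ hinv ⟨x, hx⟩ ⟨y, hy⟩
    exact congrArg (fun z : (W ⊓ C0 : Subgroup C) => (z : C)) h1
  · intro g hg
    exact ⟨hW g (hg.coprime_dvd_right (by norm_num)), hC0 g (hg.coprime_dvd_right (by norm_num))⟩

end Cfsg.Agent.H39.RtP3
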