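import Cfsg.Agent.H39.RtP3
import Cfsg.Agent.H39.RtP3b

/-!
# S2755, piece P3: conclusion (`case2` from `lemmaQ` and `c3`)
-/

set_option autoImplicit false
set_option linter.unusedVariables false

namespace Cfsg.Agent.H39.RtP3

open Cfsg.Agent.H92.Rt

universe u

variable {G : Type u} [Group G] [Finite G] {t : G} {K : Subgroup G} {q m : ℕ} {U A : Subgroup K}
  {k s r : K} {ρ u : G}

/-- [P3] from [Q] and (parts of) [C3] -/
theorem case2_of (D : RR t K q m U A k s r ρ u) (h : ∀ a ∈ A, ρ * (a : G) * ρ⁻¹ = (a : G))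
    (hQ : ∀ {Y : Type u} [Group Y] [Finite Y] (V : Subgroup Y) (_ : Nat.card V = 4)
      (_ : ∀ v ∈ V, v * v = 1) (_ : ∀ v ∈ V, v ≠ 1 → ∀ g : Y, g * v = v * g → g ∈ V)
      (_ : ∀ v ∈ V, v ≠ 1 → ∀ w ∈ V, w ≠ 1 → ∃ g : Y, g * v * g⁻¹ = w)
      (_ : ∀ u y : Y, u ≠ 1 → u * u = 1 → y ^ 3 = 1 → u * y * u⁻¹ = y⁻¹ → y = 1),
      Nat.card Y = 12)
    (hc3 : ∀ x : K, x ∈ U → x ≠ 1 →
      (∃ c : ℕ, Nat.card (Subgroup.centralizer ({(x : G)} : Set G)) = 2 * q * c ∧ Odd c ∧ ¬ 3 ∣ c) ∧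
      (∀ v : G, v ≠ 1 → v * v = 1 → v * (x : G) = (x : G) * v → Odd (orderOf (v * t)))) :
    False := by
  classical
  obtain ⟨hmodd, hm3, hm1, -⟩ := m_props D.rd
  obtain ⟨hYc, hYV⟩ := card_Y D h hQ
  set A' : Subgroup G := A.map K.subtype with hA'
  have hcA : Nat.card A' = m := by
    rw [hA', Subgroup.card_map_of_injective K.subtype_injective, D.rd.kd.cardA]
  -- transport `ρ` into `U`
  obtain ⟨g, hg⟩ := D.rd.inv u D.u1 D.u2
  have hρ1 : ρ ≠ 1 := by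
    intro e
    apply (tt D).2.2.2
    rw [e]; group
  have h1 : (g * ρ * g⁻¹) * t = t * (g * ρ * g⁻¹) := by
    rw [← hg]
    calc (g * ρ * g⁻¹) * (g * u * g⁻¹) = g * (ρ * u) * g⁻¹ := by group
      _ = g * (u * ρ) * g⁻¹ := by rw [D.ur]
      _ = (g * u * g⁻¹) * (g * ρ * g⁻¹) := by group
  have h2 : (g * ρ * g⁻¹) ^ 3 = 1 := by rw [conj_pow, D.rho3]; group
  have h3 := mem_K_of_three D.rd h1 h2
  obtain ⟨y, hy⟩ := D.rd.kd.Uconj ⟨g * ρ * g⁻¹, h3⟩ (Subtype.ext h2)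
  set x : K := y * ⟨g * ρ * g⁻¹, h3⟩ * y⁻¹ with hx
  set g1 : G := (y : G) * g with hg1
  have hxG : (x : G) = g1 * ρ * g1⁻¹ := by
    rw [hx, hg1]
    simp only [Subgroup.coe_mul, Subgroup.coe_inv]
    group
  have hug : g1 * u * g1⁻¹ = t := by
    rw [hg1]
    calc (y : G) * g * u * ((y : G) * g)⁻¹ = y * (g * u * g⁻¹) * (y : G)⁻¹ := by group
      _ = (y * t) * (y : G)⁻¹ := by rw [hg]
      _ = t := by rw [comm_t D.rd y]; group
  have hx1 : x ≠ 1 := by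
    intro e
    apply hρ1
    have h4 : (x : G) = 1 := by rw [e]; rfl
    rw [hxG] at h4
    calc ρ = g1⁻¹ * (g1 * ρ * g1⁻¹) * g1 := by group
      _ = 1 := by rw [h4]; group
  obtain ⟨⟨c, hcard, hcodd, hcn3⟩, hv⟩ := hc3 x hy hx1
  set C : Subgroup G := Subgroup.centralizer ({(x : G)} : Set G) with hC
  have hmemC : ∀ z : G, z ∈ C ↔ z * x = x * z := fun z => Subgroup.mem_centralizer_singleton_iff
  have htC : t ∈ C := (hmemC t).2 (comm_t D.rd x).symm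
  have hUC : ∀ z : K, z ∈ U → (z : G) ∈ C := fun z hz => by
    rw [hmemC]
    have := D.rd.kd.Ucomm z hz x hy
    exact congrArg (fun w : K => (w : G)) this
  obtain ⟨N, hN⟩ := D.rd.kd.q3
  set UG : Subgroup G := U.map K.subtype with hUG
  have hUGC : UG ≤ C := by
    rintro _ ⟨z, hz, rfl⟩
    exact hUC z hz
  set UC : Subgroup C := UG.subgroupOf C with hUCd
  have hcardUC : Nat.card UC = q := by
    rw [hUCd, Nat.card_congr (Subgroup.subgroupOfEquivOfLe hUGC).toEquiv, hUG,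
      Subgroup.card_map_of_injective K.subtype_injective, D.rd.kd.cardU]
  have hmemUC : ∀ z : C, z ∈ UC ↔ ∃ y ∈ U, ((y : K) : G) = z := by
    intro z
    rw [hUCd, Subgroup.mem_subgroupOf, hUG, Subgroup.mem_map]
    rfl
  obtain ⟨O, hOn, hOc, hOab, hO6⟩ := lemmaL (C := C) (q := q) (N := N) (c := c) (t := ⟨t, htC⟩) hN
    hcard hcodd hcn3 (fun e => D.rd.t1 (congrArg Subtype.val e)) (Subtype.ext D.rd.t2) UC hcardUC
    (by
      intro z hz w hw
      obtain ⟨z', hz', hzz⟩ := (hmemUC z).1 hz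
      obtain ⟨w', hw', hww⟩ := (hmemUC w).1 hw
      apply Subtype.ext
      rw [Subgroup.coe_mul, Subgroup.coe_mul, ← hzz, ← hww]
      exact congrArg (fun w : K => (w : G)) (D.rd.kd.Ucomm z' hz' w' hw'))
    (by
      intro z hz
      obtain ⟨z', hz', hzz⟩ := (hmemUC z).1 hz
      apply Subtype.ext
      rw [Subgroup.coe_mul, Subgroup.coe_mul, ← hzz]
      exact comm_t D.rd z')
    (by
      intro z hz
      have hz1 : (z : G) * t = t * z := congrArg Subtype.val hz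
      have hzx := (hmemC z).1 z.2
      obtain ⟨y', hy' | hy'⟩ := (D.rd.cent z).1 hz1
      · left
        rw [hmemUC]
        refine ⟨y', D.rd.kd.Ucent x hy hx1 y' (Subtype.ext ?_), hy'.symm⟩
        change (y' : G) * (x : G) = (x : G) * (y' : G)
        rw [← hy']
        exact hzx
      · right
        rw [hmemUC]
        have h4 : (y' : G) = t * z := by rw [hy', ← mul_assoc, D.rd.t2, one_mul]
        refine ⟨y', D.rd.kd.Ucent x hy hx1 y' (Subtype.ext ?_), h4⟩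
        change (y' : G) * (x : G) = (x : G) * (y' : G)
        rw [h4]
        calc t * (z : G) * x = t * (z * x) := by group
          _ = (t * x) * z := by rw [hzx]; group
          _ = x * (t * z) := by rw [← comm_t D.rd x]; group)
    (by
      intro v hv1 hv2
      have h4 := hv v (fun e => hv1 (Subtype.ext e)) (congrArg Subtype.val hv2)
        ((hmemC v).1 v.2)
      rwa [← Subgroup.orderOf_coe])
  haveI := hOn
  -- conjugates of elements of `A` are in `O`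
  have hAO : ∀ a ∈ A', ∃ o ∈ O, (o : G) = g1 * a * g1⁻¹ := by
    rintro _ ⟨a, ha, rfl⟩
    have h4 : g1 * (a : G) * g1⁻¹ ∈ C := by
      rw [hmemC, hxG]
      have h5 : (a : G) * ρ = ρ * a := by
        calc (a : G) * ρ = (ρ * a * ρ⁻¹) * ρ := by rw [h a ha]
          _ = ρ * a := by group
      calc g1 * (a : G) * g1⁻¹ * (g1 * ρ * g1⁻¹) = g1 * (a * ρ) * g1⁻¹ := by group
        _ = g1 * (ρ * a) * g1⁻¹ := by rw [h5]
        _ = g1 * ρ * g1⁻¹ * (g1 * a * g1⁻¹) := by group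
    refine ⟨⟨_, h4⟩, hO6 _ ?_, rfl⟩
    rw [Subgroup.orderOf_mk]
    have h6 : orderOf (g1 * (a : G) * g1⁻¹) ∣ m := by
      rw [orderOf_dvd_iff_pow_eq_one, conj_pow,
        orderOf_dvd_iff_pow_eq_one.1 (orderOf_A D.rd ha)]
      group
    refine Nat.Coprime.coprime_dvd_left h6 ?_
    have h7 : m.Coprime 2 := Nat.coprime_two_right.2 hmodd
    have h8 : m.Coprime 3 := ((Nat.Prime.coprime_iff_not_dvd Nat.prime_three).2 hm3).symm
    exact Nat.Coprime.mul_right h7 h8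
  -- the conjugate of `O`
  set OG : Subgroup G := (O.map C.subtype).map (MulAut.conj g1⁻¹).toMonoidHom with hOG
  have hmemOG : ∀ z : G, z ∈ OG ↔ ∃ o ∈ O, g1⁻¹ * (o : G) * g1 = z := by
    intro z
    rw [hOG, Subgroup.mem_map]
    constructor
    · rintro ⟨_, ⟨o, ho, rfl⟩, rfl⟩
      exact ⟨o, ho, by simp⟩
    · rintro ⟨o, ho, rfl⟩
      exact ⟨_, ⟨o, ho, rfl⟩, by simp⟩
  have hcardOG : Nat.card OG = Nat.card O := by
    rw [hOG, Subgroup.card_map_of_injective (MulAut.conj g1⁻¹).injective,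
      Subgroup.card_map_of_injective C.subtype_injective]
  have hAOG : A' ≤ OG := by
    intro a ha
    obtain ⟨o, ho, hoa⟩ := hAO a ha
    rw [hmemOG]
    exact ⟨o, ho, by rw [hoa]; group⟩
  have hOGY : OG ≤ YG G A := by
    intro z hz
    obtain ⟨o, ho, rfl⟩ := (hmemOG z).1 hz
    rw [mem_YG]
    intro a ha
    obtain ⟨o', ho', hoa⟩ := hAO (a : G) ⟨a, ha, rfl⟩
    have h5 : (o : G) * o' = o' * o := congrArg Subtype.val (hOab o ho o' ho')
    have h6 : (a : G) = g1⁻¹ * o' * g1 := by rw [hoa]; group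
    rw [h6]
    calc g1⁻¹ * (o : G) * g1 * (g1⁻¹ * o' * g1) = g1⁻¹ * (o * o') * g1 := by group
      _ = g1⁻¹ * (o' * o) * g1 := by rw [h5]
      _ = g1⁻¹ * o' * g1 * (g1⁻¹ * o * g1) := by group
  have hOGA : OG = A' := by
    symm
    refine Subgroup.eq_of_le_of_card_ge hAOG ?_
    rw [hcA]
    have h5 : Nat.card OG ∣ 12 * m := by rw [← hYc]; exact Subgroup.card_dvd_of_le hOGY
    have h6 : (Nat.card OG).Coprime 12 := by
      rw [hcardOG]
      refine Nat.Coprime.coprime_dvd_left hOc ?_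
      have h7 : c.Coprime 2 := Nat.coprime_two_right.2 hcodd
      have h8 : c.Coprime 3 := ((Nat.Prime.coprime_iff_not_dvd Nat.prime_three).2 hcn3).symm
      exact Nat.Coprime.mul_right (Nat.Coprime.mul_right h7 h7) h8
    exact Nat.le_of_dvd (by omega) (h6.dvd_of_dvd_mul_left h5)
  -- `g1⁻¹ U g1` normalizes `A'`
  have hnorm : ∀ z : K, z ∈ U → ∀ a ∈ A', (g1⁻¹ * z * g1) * a * (g1⁻¹ * z * g1)⁻¹ ∈ A' := by
    intro z hz a ha
    obtain ⟨o, ho, hoa⟩ := hAO a ha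
    rw [← hOGA, hmemOG]
    refine ⟨⟨z, hUC z hz⟩ * o * ⟨z, hUC z hz⟩⁻¹, hOn.conj_mem o ho _, ?_⟩
    simp only [Subgroup.coe_mul, Subgroup.coe_inv, hoa]
    group
  have hnormY : ∀ z : K, z ∈ U → ∀ w ∈ YG G A,
      (g1⁻¹ * z * g1) * w * (g1⁻¹ * z * g1)⁻¹ ∈ YG G A := by
    intro z hz w hw
    rw [mem_YG]
    intro a ha
    have h5 := hnorm z⁻¹ (U.inv_mem hz) (a : G) ⟨a, ha, rfl⟩
    obtain ⟨b, hb, hba⟩ := h5
    have h6 := mem_YG.1 hw b hb
    have h7 : (a : G) = (g1⁻¹ * z * g1) * b * (g1⁻¹ * z * g1)⁻¹ := by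
      change (b : G) = _ at hba
      rw [hba, Subgroup.coe_inv]
      group
    rw [h7]
    calc g1⁻¹ * (z : G) * g1 * w * (g1⁻¹ * z * g1)⁻¹ *
          (g1⁻¹ * z * g1 * b * (g1⁻¹ * z * g1)⁻¹)
        = g1⁻¹ * (z : G) * g1 * (w * b) * (g1⁻¹ * z * g1)⁻¹ := by group
      _ = g1⁻¹ * (z : G) * g1 * (b * w) * (g1⁻¹ * z * g1)⁻¹ := by rw [h6]
      _ = _ := by group
  have hnormV : ∀ z : K, z ∈ U → ∀ v ∈ VG D,
      (g1⁻¹ * z * g1) * v * (g1⁻¹ * z * g1)⁻¹ ∈ VG D := by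
    intro z hz v hvV
    have hvY : v ∈ YG G A := by
      have hρY : ρ ∈ YG G A := mem_YG.2 fun a ha => by
        calc ρ * (a : G) = (ρ * (a : G) * ρ⁻¹) * ρ := by group
          _ = a * ρ := by rw [h a ha]
      have htY : t ∈ YG G A := mem_YG.2 fun a ha => (comm_t D.rd a).symm
      rcases hvV with rfl | rfl | rfl | rfl
      · exact Subgroup.one_mem _
      · exact htY
      · exact Subgroup.mul_mem _ (Subgroup.mul_mem _ hρY htY) (Subgroup.inv_mem _ hρY)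
      · exact Subgroup.mul_mem _ htY
          (Subgroup.mul_mem _ (Subgroup.mul_mem _ hρY htY) (Subgroup.inv_mem _ hρY))
    refine hYV _ (hnormY z hz v hvY) ?_
    calc g1⁻¹ * (z : G) * g1 * v * (g1⁻¹ * z * g1)⁻¹ * (g1⁻¹ * z * g1 * v * (g1⁻¹ * z * g1)⁻¹)
        = g1⁻¹ * (z : G) * g1 * (v * v) * (g1⁻¹ * z * g1)⁻¹ := by group
      _ = 1 := by rw [VG_sq D hvV]; group
  -- pigeonhole
  let f : U → VG D × VG D := fun z =>
    (⟨_, hnormV z z.2 t (t_mem D)⟩, ⟨_, hnormV z z.2 (ρ * t * ρ⁻¹) (t'_mem D)⟩)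
  have hV4 : Nat.card (VG D) = 4 := card_four D.rd.t1 (tt D).2.2.1 (tt D).2.2.2
  have hninj : ¬ Function.Injective f := by
    intro hinj
    have h5 := Nat.card_le_card_of_injective f hinj
    rw [Nat.card_prod, hV4, D.rd.kd.cardU] at h5
    have := D.rd.kd.q27
    omega
  apply hninj
  intro z w hzw
  have h5 := congrArg (fun p : VG D × VG D => (p.1 : G)) hzw
  have h6 := congrArg (fun p : VG D × VG D => (p.2 : G)) hzw
  have h5' : (g1⁻¹ * ((z : K) : G) * g1) * t * (g1⁻¹ * ((z : K) : G) * g1)⁻¹ =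
      (g1⁻¹ * ((w : K) : G) * g1) * t * (g1⁻¹ * ((w : K) : G) * g1)⁻¹ := h5
  have h6' : (g1⁻¹ * ((z : K) : G) * g1) * (ρ * t * ρ⁻¹) * (g1⁻¹ * ((z : K) : G) * g1)⁻¹ =
      (g1⁻¹ * ((w : K) : G) * g1) * (ρ * t * ρ⁻¹) * (g1⁻¹ * ((w : K) : G) * g1)⁻¹ := h6
  set z0 : G := g1⁻¹ * ((z : K) : G) * g1 with hz0
  set w0 : G := g1⁻¹ * ((w : K) : G) * g1 with hw0
  have hcm : ∀ v : G, z0 * v * z0⁻¹ = w0 * v * w0⁻¹ → Commute (w0⁻¹ * z0) v := by
    intro v hv
    change w0⁻¹ * z0 * v = v * (w0⁻¹ * z0)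
    calc w0⁻¹ * z0 * v = w0⁻¹ * (z0 * v * z0⁻¹) * z0 := by group
      _ = w0⁻¹ * (w0 * v * w0⁻¹) * z0 := by rw [hv]
      _ = v * (w0⁻¹ * z0) := by group
  have h7 := hcm t h5'
  have h8 := hcm _ h6'
  have h9 : Commute (w0⁻¹ * z0) (k : G) := by
    rcases k_mem D with e | e | e | e
    · rw [e]; exact Commute.one_right _
    · rw [e]; exact h7
    · rw [e]; exact h8
    · rw [e]; exact h7.mul_right h8
  have h10 : w0⁻¹ * z0 = g1⁻¹ * (((w : K)⁻¹ * (z : K) : K) : G) * g1 := by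
    rw [hz0, hw0, Subgroup.coe_mul, Subgroup.coe_inv]
    group
  have h11 : ((w : K)⁻¹ * (z : K)) ^ 3 = 1 :=
    D.rd.kd.Uexp _ (U.mul_mem (U.inv_mem w.2) z.2)
  have h12 : (w0⁻¹ * z0) ^ 3 = 1 := by
    have h13 : ((((w : K)⁻¹ * (z : K) : K)) : G) ^ 3 = 1 := by
      have := congrArg (fun z : K => (z : G)) h11
      simpa using this
    rw [h10]
    have h14 := conj_pow (i := 3) (a := g1⁻¹) (b := ((((w : K)⁻¹ * (z : K) : K)) : G))
    rw [inv_inv] at h14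
    rw [h14, h13]; group
  have h13 := eq_one_of_comm D.rd h7 h9 h12
  rw [h10] at h13
  have h14 : ((((w : K)⁻¹ * (z : K) : K)) : G) = 1 := by
    calc ((((w : K)⁻¹ * (z : K) : K)) : G)
        = g1 * (g1⁻¹ * ((((w : K)⁻¹ * (z : K) : K)) : G) * g1) * g1⁻¹ := by group
      _ = 1 := by rw [h13]; group
  have h15 : (w : K)⁻¹ * (z : K) = 1 := Subtype.ext h14
  have h16 : (z : K) = w := (inv_mul_eq_one.1 h15).symm
  exact Subtype.ext h16

end Cfsg.Agent.H39.RtP3
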