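import Cfsg.Agent.H39.StNorm

set_option autoImplicit false

/-!
The restriction of the Steinberg character to the Borel subgroup.
-/

namespace Cfsg.Agent.H39.St

open Cfsg Cfsg.Agent.ChevWeyl Cfsg.Agent.ChevGrp Cfsg.Agent.ChevGrp.RGrp Finset Cfsg.Agent.CharBase

variable {l n : ℕ} {D : RootPerm l n} {G : Type*} [Group G] {R : RGrp D.wsys G}

lemma conj_longest_mem_B {m : G} (hm : m ∈ R.N) (hA : R.Act m (wJ D Finset.univ)) {c : G} (hc : c ∈ R.B) :
    m⁻¹ * c * m ∈ R.B ↔ c ∈ R.H := by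
  constructor
  · intro h
    obtain ⟨u, hu, k, hk, rfl⟩ := mem_B.1 hc
    have h1 : m⁻¹ * u * m ∈ R.B := by
      have h2 := mul_mem h (inv_mem (R.H_le_B (N_conj_H' hm hk)))
      have e : m⁻¹ * (u * k) * m * (m⁻¹ * k * m)⁻¹ = m⁻¹ * u * m := by group
      rwa [e] at h2
    have h3 : u ∈ AJ R (Finset.univ : Finset (Fin l)) := (mem_AJ_iff hm hA).2 ⟨hu, h1⟩
    rw [AJ_univ, Subgroup.mem_bot] at h3
    rw [h3, one_mul]; exact hk
  · intro h
    exact R.H_le_B (N_conj_H' hm h)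

/-- the chambers opposite to the base chamber as cosets of `H` in `B` -/
noncomputable def oppEquiv (hT : R.Grp = ⊤) {m : G} (hm : m ∈ R.N) (hA : R.Act m (wJ D Finset.univ)) :
    R.B ⧸ R.H.subgroupOf R.B ≃ {x : G ⧸ R.B // qtyp R hT x = wJ D Finset.univ} :=
  Equiv.ofBijective (Quotient.lift (fun u : R.B => (⟨((u * m : G) : G ⧸ R.B), qtyp_U hT hm hA u.2⟩ :
    {x : G ⧸ R.B // qtyp R hT x = wJ D Finset.univ})) (by
      intro a b h
      have h1 : a⁻¹ * b ∈ R.H.subgroupOf R.B := QuotientGroup.leftRel_apply.1 h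
      rw [Subgroup.mem_subgroupOf, ← conj_longest_mem_B hm hA (a⁻¹ * b).2] at h1
      apply Subtype.ext
      change ((_ : G) : G ⧸ R.B) = ((_ : G) : G ⧸ R.B)
      rw [QuotientGroup.eq]
      have e : (a * m : G)⁻¹ * (b * m) = m⁻¹ * ((a⁻¹ * b : R.B) : G) * m := by
        rw [Subgroup.coe_mul, Subgroup.coe_inv]; group
      rw [e]; exact h1)) (by
    constructor
    · intro a b
      induction a using QuotientGroup.induction_on with
      | H a =>
        induction b using QuotientGroup.induction_on with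
        | H b =>
          intro h
          have h1 : ((a * m : G) : G ⧸ R.B) = ((b * m : G) : G ⧸ R.B) := congrArg Subtype.val h
          rw [QuotientGroup.eq] at h1 ⊢
          rw [Subgroup.mem_subgroupOf, ← conj_longest_mem_B hm hA (a⁻¹ * b).2]
          have e : (a * m : G)⁻¹ * (b * m) = m⁻¹ * ((a⁻¹ * b : R.B) : G) * m := by
            rw [Subgroup.coe_mul, Subgroup.coe_inv]; group
          rwa [e] at h1
    · rintro ⟨x, hx⟩
      obtain ⟨u, hu, h⟩ := exists_U_of_typ hT hm hA hx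
      exact ⟨((⟨u, R.U_le_B hu⟩ : R.B) : R.B ⧸ R.H.subgroupOf R.B), Subtype.ext h⟩)

lemma oppEquiv_smul (hT : R.Grp = ⊤) {m : G} (hm : m ∈ R.N) (hA : R.Act m (wJ D Finset.univ)) (b : R.B)
    (x : R.B ⧸ R.H.subgroupOf R.B) :
    ((oppEquiv hT hm hA (b • x) : {x : G ⧸ R.B // qtyp R hT x = wJ D Finset.univ}) : G ⧸ R.B) =
      (b : G) • ((oppEquiv hT hm hA x : {x : G ⧸ R.B // qtyp R hT x = wJ D Finset.univ}) : G ⧸ R.B) := by
  induction x using QuotientGroup.induction_on with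
  | H c =>
    change (((b * c : R.B) : G) * m : G ⧸ R.B) = (((b : G) * ((c : G) * m) : G) : G ⧸ R.B)
    rw [Subgroup.coe_mul, mul_assoc]

/-- restriction of the Steinberg character to the Borel subgroup -/
theorem stein_B (hT : R.Grp = ⊤) [Finite G] (b : R.B) :
    stein R (b : G) = Nat.card (MulAction.fixedBy (R.B ⧸ R.H.subgroupOf R.B) b) := by
  obtain ⟨m, hm, hA⟩ := exists_rep (R := R) (wJ_mem' (D := D) Finset.univ)
  rw [stein_eq_s hT (b : G) ((1 : G) : G ⧸ par R Finset.univ), s_one hT _ b.2]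
  congr 1
  symm
  refine Nat.card_congr ⟨fun x => ⟨(oppEquiv hT hm hA x.1).1, ⟨?_, ?_⟩, ?_⟩, fun x => ⟨(oppEquiv hT hm hA).symm
    ⟨x.1, eq_wJ x.2.1.2 x.2.2⟩, ?_⟩, ?_, ?_⟩
  · rw [← oppEquiv_smul]
    have := x.2
    rw [MulAction.mem_fixedBy] at this
    rw [this]
  · rw [(oppEquiv hT hm hA x.1).2]; exact wJ_mem _
  · intro j hj
    rw [(oppEquiv hT hm hA x.1).2]; exact wJ_neg' hj
  · rw [MulAction.mem_fixedBy]
    apply (oppEquiv hT hm hA).injective
    apply Subtype.ext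
    rw [oppEquiv_smul, Equiv.apply_symm_apply]
    exact x.2.1.1
  · intro x
    apply Subtype.ext
    change (oppEquiv hT hm hA).symm (oppEquiv hT hm hA x.1) = x.1
    rw [Equiv.symm_apply_apply]
  · intro x
    apply Subtype.ext
    change ((oppEquiv hT hm hA) ((oppEquiv hT hm hA).symm ⟨x.1, _⟩)).1 = x.1
    rw [Equiv.apply_symm_apply]

theorem steinC_B (hT : R.Grp = ⊤) [Finite G] (B' H' : Subgroup G) (hB : R.B = B') (hH : R.H = H') (b : B') :
    steinC R (b : G) = fixedPointCharacter (H'.subgroupOf B') b := by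
  subst hB hH
  unfold steinC fixedPointCharacter
  rw [stein_B hT b]; simp

end Cfsg.Agent.H39.St
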