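import Cfsg.Agent.H39.StNorm

set_option autoImplicit false

/-!
Intersections of parabolic subgroups; orbits of the unipotent radical on residues.
-/

namespace Cfsg.Agent.H39.St

open Cfsg Cfsg.Agent.ChevWeyl Cfsg.Agent.ChevGrp Cfsg.Agent.ChevGrp.RGrp Finset Cfsg.Agent.CharBase

variable {l n : ℕ} {D : RootPerm l n}

/-- the indices in `J` conjugate by `w⁻¹` to a simple root in `K` -/
noncomputable def mJK (D : RootPerm l n) (J K : Finset (Fin l)) (w : Equiv.Perm (Fin n)) : Finset (Fin l) := by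
  classical exact J.filter fun j => ∃ k ∈ K, w (D.p k) = D.p j

lemma mem_mJK {J K : Finset (Fin l)} {w : Equiv.Perm (Fin n)} {j : Fin l} :
    j ∈ mJK D J K w ↔ j ∈ J ∧ ∃ k ∈ K, w (D.p k) = D.p j := by
  classical
  unfold mJK
  rw [Finset.mem_filter]

/-- Kilmoyer: `W_J ∩ w W_K w⁻¹` -/
lemma kilmoyer {J K : Finset (Fin l)} {w : Equiv.Perm (Fin n)} (hw : w ∈ D.W)
    (hK : DJ D K w) (hJ : DJ D J w⁻¹)
    {x y : Equiv.Perm (Fin n)} (hx : x ∈ D.WJ J) (hy : y ∈ D.WJ K) (e : x * w = w * y) : x ∈ D.WJ (mJK D J K w) := by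
  induction hN : D.N x using Nat.strong_induction_on generalizing x y with
  | _ k ih =>
    by_cases hx1 : x = 1
    · subst hx1; exact one_mem _
    · obtain ⟨j, hj, hneg⟩ := D.exists_descent (inv_mem hx) (inv_ne_one.2 hx1)
      have hxW := D.WJ_le J hx
      have h1 : D.Pos (D.neg (x⁻¹ (D.p j))) := (D.pos_neg_iff _).2 hneg
      have h2 : InJ D J (D.neg (x⁻¹ (D.p j))) := inJ_neg.2 ((inJ_apply (inv_mem hx) _).2 (inJ_p hj))
      have h3 := pos_of_pos (inv_mem hw) hJ h1 h2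
      rw [D.W_neg (inv_mem hw), D.pos_neg_iff] at h3
      have h4 : w⁻¹ (x⁻¹ (D.p j)) = y⁻¹ (w⁻¹ (D.p j)) := by
        have : w⁻¹ * x⁻¹ = y⁻¹ * w⁻¹ := by rw [← mul_inv_rev, e, mul_inv_rev]
        exact congrArg (fun u : Equiv.Perm (Fin n) => u (D.p j)) this
      rw [h4] at h3
      have h5 : D.Pos (w⁻¹ (D.p j)) := hJ j hj
      have h6 : InJ D K (w⁻¹ (D.p j)) := by
        by_contra hcon
        exact h3 (pos_WJ (inv_mem hy) h5 hcon)
      obtain ⟨i, hi, h7⟩ := simple_of_pos hw hK h5 h6 (j := j) (by simp)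
      have h8 : w (D.p i) = D.p j := by rw [← h7]; simp
      have h9 := D.conj_w hw h8
      have h10 : D.N (D.w j * x) + 1 = D.N x := D.N_w_mul_neg hxW hneg
      have h11 := ih (D.N (D.w j * x)) (by omega) (mul_mem (D.w_mem_WJ hj) hx) (mul_mem (D.w_mem_WJ hi) hy)
        (by rw [mul_assoc, e, ← h9]; group) rfl
      have h12 : D.w j ∈ D.WJ (mJK D J K w) := D.w_mem_WJ (mem_mJK.2 ⟨hj, i, hi, h8⟩)
      have := mul_mem h12 h11
      rwa [← mul_assoc, D.w_mul_w, one_mul] at this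

/-! ### the distinguished Weyl group element `w_J w_0` -/

lemma wJ0_DJ (J : Finset (Fin l)) : DJ D J (wJ D J * wJ D Finset.univ)⁻¹ := by
  intro j hj
  rw [mul_inv_rev, wJ_inv, wJ_inv, Equiv.Perm.mul_apply]
  obtain ⟨i, hi, h⟩ := wJ_simple (D := D) hj
  rw [h, D.W_neg (wJ_mem' _), D.pos_neg_iff]
  exact wJ_neg' (Finset.mem_univ i)

lemma wJ0_simple {J : Finset (Fin l)} {j : Fin l} (hj : j ∈ J) :
    ∃ k, (wJ D J * wJ D Finset.univ) (D.p k) = D.p j := by
  obtain ⟨i, hi, h⟩ := wJ_simple (D := D) hj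
  obtain ⟨k, -, hk⟩ := wJ_simple (D := D) (Finset.mem_univ i)
  refine ⟨k, ?_⟩
  have h1 : wJ D Finset.univ (D.p k) = D.neg (D.p i) := by
    have h2 := wJ_wJ (D := D) Finset.univ (D.p i)
    rw [hk, D.W_neg (wJ_mem' _)] at h2
    rw [← h2, D.neg_neg]
  rw [Equiv.Perm.mul_apply, h1, D.W_neg (wJ_mem' J), ← D.neg_neg (D.p j)]
  congr 1
  have h3 := wJ_wJ (D := D) J (D.p j)
  rw [h, D.W_neg (wJ_mem' J)] at h3
  rw [← h3, D.neg_neg]

lemma wJ0_asc {J : Finset (Fin l)} {k : Fin l} (h : D.Pos ((wJ D J * wJ D Finset.univ) (D.p k))) :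
    ∃ j ∈ J, (wJ D J * wJ D Finset.univ) (D.p k) = D.p j := by
  obtain ⟨i, -, hi⟩ := wJ_simple (D := D) (Finset.mem_univ k)
  rw [Equiv.Perm.mul_apply, hi, D.W_neg (wJ_mem' J), D.pos_neg_iff] at h
  have hiJ : i ∈ J := by
    by_contra hcon
    exact h (pos_WJ (wJ_mem J) (D.pos_p i) (fun h' => hcon (inJ_p_iff.1 h')))
  obtain ⟨j, hj, h1⟩ := wJ_simple (D := D) hiJ
  exact ⟨j, hj, by rw [Equiv.Perm.mul_apply, hi, D.W_neg (wJ_mem' J), h1, D.neg_neg]⟩

lemma eq_wJ0 {J : Finset (Fin l)} {w : Equiv.Perm (Fin n)} (hw : w ∈ D.W) (hJ : DJ D J w⁻¹)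
    (h : ∀ k, D.Pos (w (D.p k)) → ∃ j ∈ J, w (D.p k) = D.p j) : w = wJ D J * wJ D Finset.univ := by
  have h1 : wJ D J * w = wJ D Finset.univ := by
    refine eq_wJ (by rw [D.WJ_univ]; exact mul_mem (wJ_mem' J) hw) fun k _ => ?_
    rw [Equiv.Perm.mul_apply]
    by_cases hp : D.Pos (w (D.p k))
    · obtain ⟨j, hj, h2⟩ := h k hp
      rw [h2]; exact wJ_neg' hj
    · have h2 : D.Pos (D.neg (w (D.p k))) := (D.pos_neg_iff _).2 hp
      have h3 : ¬ InJ D J (D.neg (w (D.p k))) := by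
        intro h4
        have h5 := pos_of_pos (inv_mem hw) hJ h2 h4
        rw [D.W_neg (inv_mem hw), D.pos_neg_iff] at h5
        apply h5
        simpa using D.pos_p k
      have h4 := pos_WJ (wJ_mem J) h2 h3
      rw [D.W_neg (wJ_mem' J), D.pos_neg_iff] at h4
      exact h4
  rw [← h1, ← mul_assoc, wJ_mul_self, one_mul]

/-- the alternating sum over the types `K` with `w⁻¹ Π_J ⊆ Π_K ⊆ asc w` -/
lemma sum_types (J : Finset (Fin l)) {w : Equiv.Perm (Fin n)} (hw : w ∈ D.W) (hJ : DJ D J w⁻¹)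
    [∀ K : Finset (Fin l), Decidable (DJ D K w ∧ ∀ j ∈ J, ∃ k ∈ K, w (D.p k) = D.p j)]
    [Decidable (w = wJ D J * wJ D Finset.univ)] :
    ∑ K ∈ (Finset.univ : Finset (Fin l)).powerset, (if DJ D K w ∧ ∀ j ∈ J, ∃ k ∈ K, w (D.p k) = D.p j then
      (-1 : ℤ) ^ K.card else 0) = if w = wJ D J * wJ D Finset.univ then (-1) ^ J.card else 0 := by
  classical
  set I : Finset (Fin l) := Finset.univ.filter fun k => ∃ j ∈ J, w (D.p k) = D.p j with hI
  have hIm : ∀ k, k ∈ I ↔ ∃ j ∈ J, w (D.p k) = D.p j := by intro k; rw [hI, Finset.mem_filter]; simp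
  set A : Finset (Fin l) := Finset.univ.filter fun k => D.Pos (w (D.p k)) with hA
  have hAm : ∀ k, k ∈ A ↔ D.Pos (w (D.p k)) := by intro k; rw [hA, Finset.mem_filter]; simp
  have hIA : I ⊆ A := by
    intro k hk
    obtain ⟨j, -, h⟩ := (hIm k).1 hk
    rw [hAm, h]; exact D.pos_p j
  by_cases hall : ∀ j ∈ J, ∃ k, w (D.p k) = D.p j
  · have hIc : I.card = J.card := by
      refine Finset.card_bij (fun k hk => ((hIm k).1 hk).choose) ?_ ?_ ?_
      · intro k hk
        exact ((hIm k).1 hk).choose_spec.1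
      · intro a ha b hb h
        have h1 := ((hIm a).1 ha).choose_spec.2
        have h2 := ((hIm b).1 hb).choose_spec.2
        rw [h, ← h2] at h1
        exact D.wsys.p_inj (w.injective h1)
      · intro j hj
        obtain ⟨k, hk⟩ := hall j hj
        refine ⟨k, (hIm k).2 ⟨j, hj, hk⟩, ?_⟩
        have h1 := ((hIm k).1 ((hIm k).2 ⟨j, hj, hk⟩)).choose_spec.2
        exact (D.wsys.p_inj (hk.symm.trans h1)).symm
    have hcond : ∀ K : Finset (Fin l), (DJ D K w ∧ ∀ j ∈ J, ∃ k ∈ K, w (D.p k) = D.p j) ↔ I ⊆ K ∧ K ⊆ A := by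
      intro K
      constructor
      · rintro ⟨h1, h2⟩
        refine ⟨fun k hk => ?_, fun k hk => (hAm k).2 (h1 k hk)⟩
        obtain ⟨j, hj, h3⟩ := (hIm k).1 hk
        obtain ⟨k', hk', h4⟩ := h2 j hj
        rw [← h3] at h4
        have := D.wsys.p_inj (w.injective h4)
        rwa [← this]
      · rintro ⟨h1, h2⟩
        refine ⟨fun k hk => (hAm k).1 (h2 hk), fun j hj => ?_⟩
        obtain ⟨k, hk⟩ := hall j hj
        exact ⟨k, h1 ((hIm k).2 ⟨j, hj, hk⟩), hk⟩
    have h1 : ∑ K ∈ (Finset.univ : Finset (Fin l)).powerset, (if DJ D K w ∧ ∀ j ∈ J, ∃ k ∈ K, w (D.p k) = D.p j then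
        (-1 : ℤ) ^ K.card else 0) = ∑ K ∈ (A \ I).powerset, (-1 : ℤ) ^ J.card * (-1) ^ K.card := by
      rw [← Finset.sum_filter]
      symm
      refine Finset.sum_bij (fun K _ => I ∪ K) ?_ ?_ ?_ ?_
      · intro K hK
        rw [Finset.mem_powerset] at hK
        rw [Finset.mem_filter]
        refine ⟨Finset.mem_powerset.2 (Finset.subset_univ _), (hcond _).2 ⟨Finset.subset_union_left,
          Finset.union_subset hIA (hK.trans Finset.sdiff_subset)⟩⟩
      · intro K hK L hL h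
        rw [Finset.mem_powerset] at hK hL
        have e1 : (I ∪ K) \ I = K := by
          rw [Finset.union_sdiff_left, Finset.sdiff_eq_self_iff_disjoint]
          exact Finset.disjoint_of_subset_left hK Finset.sdiff_disjoint
        have e2 : (I ∪ L) \ I = L := by
          rw [Finset.union_sdiff_left, Finset.sdiff_eq_self_iff_disjoint]
          exact Finset.disjoint_of_subset_left hL Finset.sdiff_disjoint
        rw [← e1, ← e2]
        exact congrArg (fun X => X \ I) h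
      · intro K hK
        rw [Finset.mem_filter, hcond] at hK
        refine ⟨K \ I, ?_, Finset.union_sdiff_of_subset hK.2.1⟩
        rw [Finset.mem_powerset]
        exact Finset.sdiff_subset_sdiff hK.2.2 (le_refl _)
      · intro K hK
        rw [Finset.mem_powerset] at hK
        rw [Finset.card_union_of_disjoint, hIc, pow_add]
        exact (Finset.disjoint_of_subset_left hK Finset.sdiff_disjoint).symm
    rw [h1, ← Finset.mul_sum, Finset.sum_powerset_neg_one_pow_card]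
    have h2 : A \ I = ∅ ↔ w = wJ D J * wJ D Finset.univ := by
      rw [Finset.sdiff_eq_empty_iff_subset]
      constructor
      · intro h
        refine eq_wJ0 hw hJ fun k hk => ?_
        exact (hIm k).1 (h ((hAm k).2 hk))
      · rintro h k hk
        rw [hAm, h] at hk
        rw [hIm, h]
        exact wJ0_asc hk
    by_cases h3 : w = wJ D J * wJ D Finset.univ
    · rw [if_pos h3, if_pos (h2.2 h3), mul_one]
    · rw [if_neg h3, if_neg (fun h => h3 (h2.1 h)), mul_zero]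
  · rw [if_neg, Finset.sum_eq_zero]
    · intro K _
      rw [if_neg]
      rintro ⟨-, h⟩
      apply hall
      intro j hj
      obtain ⟨k, -, hk⟩ := h j hj
      exact ⟨k, hk⟩
    · intro h
      apply hall
      intro j hj
      rw [h]; exact wJ0_simple hj

section grp

variable {G : Type*} [Group G] {R : RGrp D.wsys G}

/-- the intersection of two parabolic subgroups in relative position `w` -/
lemma mem_par_mJK {J K : Finset (Fin l)} {w : Equiv.Perm (Fin n)} {m : G} (hm : m ∈ R.N) (hA : R.Act m w)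
    (hK : DJ D K w) (hJ : DJ D J w⁻¹) {g : G} (hg : g ∈ par R J) (hg' : m⁻¹ * g * m ∈ par R K) :
    g ∈ par R (mJK D J K w) := by
  obtain ⟨x, hx, hxC⟩ := inC_of_par hg
  obtain ⟨y, hy, hyC⟩ := inC_of_par hg'
  have h1 := inC_mul' hA.1 hJ hx hxC (InC.of_N hm hA)
  have h2 := inC_mul hA.1 hK hy (InC.of_N hm hA) hyC
  have e : m * (m⁻¹ * g * m) = g * m := by group
  rw [e] at h2
  have h3 := h1.unique h2
  rw [mem_par_of hxC]
  exact kilmoyer hA.1 hK hJ hx hy h3

/-- `P_J = A_J (P_J ∩ m P_K m⁻¹)` if `w⁻¹ Π_J ⊆ Π_K` -/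
lemma exists_radical_mul {J K : Finset (Fin l)} {w : Equiv.Perm (Fin n)} {m : G} (hm : m ∈ R.N) (hA : R.Act m w)
    (h : ∀ j ∈ J, ∃ k ∈ K, w (D.p k) = D.p j) {g : G} (hg : g ∈ par R J) :
    ∃ a ∈ AJ R J, m⁻¹ * (a⁻¹ * g) * m ∈ par R K := by
  -- the set of such elements is a subgroup containing generators
  set Q : Subgroup G := (par R K).comap (MulAut.conj m⁻¹).toMonoidHom with hQ
  have hQm : ∀ x, x ∈ Q ↔ m⁻¹ * x * m ∈ par R K := by
    intro x
    rw [hQ, Subgroup.mem_comap]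
    change m⁻¹ * x * m⁻¹⁻¹ ∈ _ ↔ _
    rw [inv_inv]
  have hH : R.H ≤ Q := by
    intro x hx
    rw [hQm]
    exact B_le_par K (R.H_le_B (N_conj_H' hm hx))
  have hX : ∀ j ∈ J, R.X (D.p j) ≤ Q := by
    intro j hj x hx
    rw [hQm]
    obtain ⟨k, -, hk⟩ := h j hj
    have h1 := hA.conj' hx
    rw [← hk] at h1
    have h2 : w⁻¹ (w (D.p k)) = D.p k := by simp
    rw [h2] at h1
    exact B_le_par K (R.U_le_B (X_pos_le_U (D.pos_p k) h1))
  have hn : ∀ j ∈ J, R.nn j ∈ Q := by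
    intro j hj
    rw [hQm]
    obtain ⟨k, hkK, hk⟩ := h j hj
    have h1 : R.Act (m⁻¹ * R.nn j * m) (w⁻¹ * D.w j * w) := (hA.inv.mul (act_nn j)).mul hA
    have h2 := D.conj_w hA.1 hk
    have h3 : w⁻¹ * D.w j * w = D.w k := by rw [← h2]; group
    rw [h3] at h1
    rw [mem_par_of (InC.of_N (mul_mem (mul_mem (inv_mem hm) (R.nn_mem_N j)) hm) h1)]
    exact D.w_mem_WJ hkK
  -- `A_J Q'` with `Q' = Q ∩ P_J`
  have key : par R J ≤ (Q ⊓ par R J) ⊔ AJ R J := by
    have hle : AJ R J ≤ (Q ⊓ par R J) ⊔ AJ R J := le_sup_right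
    have hle2 : Q ⊓ par R J ≤ (Q ⊓ par R J) ⊔ AJ R J := le_sup_left
    have hnn : ∀ j ∈ J, R.nn j ∈ (Q ⊓ par R J) ⊔ AJ R J := fun j hj =>
      hle2 ⟨hn j hj, nn_mem_par hj⟩
    refine sup_le (sup_le (gen_le.2 fun r hr => ?_) ?_) ?_
    · by_cases hJr : InJ D J r
      · obtain ⟨u, hu, j, hj, hur⟩ := exists_conjJ hr hJr
        -- `u` is a word in the `n_j`
        obtain ⟨L, hL, hLu⟩ := D.exists_word hu
        have hnd : R.nd L ∈ (Q ⊓ par R J) ⊔ AJ R J := by
          clear hLu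
          induction L with
          | nil => exact one_mem _
          | cons a L ih =>
            rw [nd_cons]
            exact mul_mem (hnn a (hL a (by simp))) (ih fun i hi => hL i (by simp [hi]))
        intro x hx
        have hAct : R.Act (R.nd L) u := by rw [← hLu]; exact act_nd L
        have h1 := hAct.conj' hx
        rw [← hur] at h1
        have h2 : u⁻¹ (u (D.p j)) = D.p j := by simp
        rw [h2] at h1
        have h3 : (R.nd L)⁻¹ * x * R.nd L ∈ (Q ⊓ par R J) ⊔ AJ R J :=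
          hle2 ⟨hX j hj h1, B_le_par J (R.U_le_B (X_pos_le_U (D.pos_p j) h1))⟩
        have h4 := mul_mem (mul_mem hnd h3) (inv_mem hnd)
        have e : R.nd L * ((R.nd L)⁻¹ * x * R.nd L) * (R.nd L)⁻¹ = x := by group
        rwa [e] at h4
      · exact (X_le_AJ hr hJr).trans hle
    · intro x hx
      exact hle2 ⟨hH hx, B_le_par J (R.H_le_B hx)⟩
    · rw [Subgroup.closure_le]
      rintro _ ⟨j, hj, rfl⟩
      exact hnn j hj
  obtain ⟨a, ha, q, hq, e⟩ := mem_sup_of_normalizes' (A := Q ⊓ par R J) (C := AJ R J)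
    (fun q hq c hc => (par_norm_AJ hq.2).2 hc) (key hg)
  refine ⟨a, ha, ?_⟩
  rw [e, inv_mul_cancel_left]
  exact (hQm q).1 hq.1

end grp

end Cfsg.Agent.H39.St
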