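import Cfsg.Agent.H39.StLevi
import Cfsg.Agent.Hall.Basic
import Cfsg.Agent.Cop.Basic
import Cfsg.Agent.CharBase.Central

set_option autoImplicit false

/-!
Values of the Steinberg character at `p`-regular elements.
-/

namespace Cfsg.Agent.H39.St

open Cfsg Cfsg.Agent.ChevWeyl Cfsg.Agent.ChevGrp Cfsg.Agent.ChevGrp.RGrp Finset Cfsg.Agent.CharBase
open scoped Pointwise

section burnside

variable {G : Type*} [Group G] {Ω : Type*} [MulAction G Ω]

/-- the points whose `A`-orbit is fixed by `s` -/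
def fixOrb (A : Subgroup G) (s : G) (hs : ∀ a ∈ A, s * a * s⁻¹ ∈ A) (Ω : Type*) [MulAction G Ω] : SubMulAction A Ω where
  carrier := {z | ∃ a ∈ A, (a * s) • z = z}
  smul_mem' := by
    rintro ⟨c, hc⟩ z ⟨a, ha, h⟩
    refine ⟨c * a * (s * c⁻¹ * s⁻¹), mul_mem (mul_mem hc ha) (hs _ (inv_mem hc)), ?_⟩
    change (c * a * (s * c⁻¹ * s⁻¹) * s) • (c • z) = c • z
    rw [smul_smul]
    have e : c * a * (s * c⁻¹ * s⁻¹) * s * c = c * (a * s) := by group
    rw [e, mul_smul, h]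

lemma mem_fixOrb {A : Subgroup G} {s : G} {hs : ∀ a ∈ A, s * a * s⁻¹ ∈ A} {z : Ω} :
    z ∈ fixOrb A s hs Ω ↔ ∃ a ∈ A, (a * s) • z = z := Iff.rfl

/-- the set of fixed orbits -/
def fOrb (A : Subgroup G) (s : G) (hs : ∀ a ∈ A, s * a * s⁻¹ ∈ A) (Ω : Type*) [MulAction G Ω] : Type _ :=
  Quotient (MulAction.orbitRel A (fixOrb A s hs Ω))

/-- the orbit of a point -/
def mkOrb {A : Subgroup G} {s : G} (hs : ∀ a ∈ A, s * a * s⁻¹ ∈ A) {z : Ω} (hz : ∃ a ∈ A, (a * s) • z = z) :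
    fOrb A s hs Ω := Quotient.mk _ ⟨z, hz⟩

lemma mkOrb_eq_iff {A : Subgroup G} {s : G} (hs : ∀ a ∈ A, s * a * s⁻¹ ∈ A) {z z' : Ω}
    (hz : ∃ a ∈ A, (a * s) • z = z) (hz' : ∃ a ∈ A, (a * s) • z' = z') :
    mkOrb hs hz = mkOrb hs hz' ↔ ∃ a ∈ A, a • z' = z := by
  constructor
  · intro h
    obtain ⟨⟨a, ha⟩, hg⟩ := Quotient.exact h
    exact ⟨a, ha, congrArg Subtype.val hg⟩
  · rintro ⟨a, ha, h⟩
    exact Quotient.sound ⟨⟨a, ha⟩, Subtype.ext h⟩

lemma exists_mkOrb {A : Subgroup G} {s : G} (hs : ∀ a ∈ A, s * a * s⁻¹ ∈ A) (q : fOrb A s hs Ω) :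
    ∃ (z : Ω) (hz : ∃ a ∈ A, (a * s) • z = z), mkOrb hs hz = q := by
  unfold fOrb at q
  induction q using Quotient.inductionOn with
  | h z => exact ⟨z.1, z.2, rfl⟩

/-- Burnside's lemma for a coset -/
theorem coset_burnside [Finite G] [Finite Ω] (A : Subgroup G) (s : G) (hs : ∀ a ∈ A, s * a * s⁻¹ ∈ A) [Fintype A] :
    ∑ a : A, Nat.card {z : Ω // ((a : G) * s) • z = z} = Nat.card (fOrb A s hs Ω) * Nat.card A := by
  classical
  unfold fOrb
  have : Fintype Ω := Fintype.ofFinite _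
  have : Fintype (fixOrb A s hs Ω) := Fintype.ofFinite _
  have : Fintype (Quotient (MulAction.orbitRel A (fixOrb A s hs Ω))) := Fintype.ofFinite _
  have h0 := MulAction.sum_card_fixedBy_eq_card_orbits_mul_card_group A (fixOrb A s hs Ω)
  rw [← Nat.card_eq_fintype_card, ← Nat.card_eq_fintype_card] at h0
  rw [← h0]
  -- both sides count pairs
  have h1 : ∑ a : A, Nat.card {z : Ω // ((a : G) * s) • z = z} = ∑ z : Ω, Nat.card {a : A // ((a : G) * s) • z = z} := by
    simp only [Nat.card_eq_fintype_card, Fintype.card_subtype, Finset.card_filter]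
    rw [Finset.sum_comm]
  have h2 : ∑ a : A, Fintype.card (MulAction.fixedBy (fixOrb A s hs Ω) a) =
      ∑ z : fixOrb A s hs Ω, Nat.card {a : A // a • z = z} := by
    have h3 : ∀ a : A, Fintype.card (MulAction.fixedBy (fixOrb A s hs Ω) a) =
        ∑ z : fixOrb A s hs Ω, if a • z = z then 1 else 0 := by
      intro a
      rw [← Finset.card_filter, ← Fintype.card_subtype]
      exact Fintype.card_congr (Equiv.refl _)
    rw [Finset.sum_congr rfl fun a _ => h3 a, Finset.sum_comm]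
    simp only [Nat.card_eq_fintype_card, Fintype.card_subtype, Finset.card_filter]
  rw [h1, h2]
  have h4 : ∀ z : Ω, z ∉ fixOrb A s hs Ω → Nat.card {a : A // ((a : G) * s) • z = z} = 0 := by
    intro z hz
    have : IsEmpty {a : A // ((a : G) * s) • z = z} := ⟨fun a => hz ⟨a.1, a.1.2, a.2⟩⟩
    exact Nat.card_of_isEmpty
  have h5 : ∀ z : fixOrb A s hs Ω, Nat.card {a : A // ((a : G) * s) • (z : Ω) = z} = Nat.card {a : A // a • z = z} := by
    intro z
    obtain ⟨b, hb, h⟩ := mem_fixOrb.1 z.2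
    refine Nat.card_congr ⟨fun a => ⟨a.1 * ⟨b, hb⟩⁻¹, ?_⟩, fun a => ⟨a.1 * ⟨b, hb⟩, ?_⟩, ?_, ?_⟩
    · apply Subtype.ext
      change ((a.1 : G) * b⁻¹) • (z : Ω) = z
      have h6 := a.2
      calc ((a.1 : G) * b⁻¹) • (z : Ω) = ((a.1 : G) * b⁻¹) • ((b * s) • (z : Ω)) := by rw [h]
        _ = ((a.1 : G) * s) • (z : Ω) := by rw [smul_smul]; congr 1; group
        _ = z := h6
    · change ((a.1 : G) * b * s) • (z : Ω) = z
      have h6 : (a.1 : G) • (z : Ω) = z := congrArg Subtype.val a.2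
      rw [mul_assoc, mul_smul, h, h6]
    · intro a; apply Subtype.ext; change a.1 * _⁻¹ * _ = a.1; group
    · intro a; apply Subtype.ext; change a.1 * _ * _⁻¹ = a.1; group
  rw [← Finset.sum_congr rfl fun z _ => h5 z]
  have h6 := Finset.sum_subtype (F := ‹Fintype (fixOrb A s hs Ω)›)
    (Finset.univ.filter fun z : Ω => z ∈ fixOrb A s hs Ω) (p := fun z => z ∈ fixOrb A s hs Ω)
    (by intro x; simp) (fun z : Ω => Nat.card {a : A // ((a : G) * s) • z = z})
  have h7 : ∑ z : Ω, Nat.card {a : A // ((a : G) * s) • z = z} =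
      ∑ z ∈ Finset.univ.filter (fun z : Ω => z ∈ fixOrb A s hs Ω), Nat.card {a : A // ((a : G) * s) • z = z} := by
    rw [Finset.sum_filter]
    refine Finset.sum_congr rfl fun z _ => ?_
    split_ifs with h8
    · rfl
    · exact h4 z h8
  rw [h7, h6]

/-- elements of a coset of a normalized `p`-subgroup of order prime to `p` are conjugate -/
theorem conj_of_coset [Finite G] {p : ℕ} [hp : Fact p.Prime] {A : Subgroup G} (hA : IsPGroup p A) {s : G}
    (hs : s ∈ Subgroup.normalizer (A : Set G)) (hsp : (orderOf s).Coprime p) {a : G} (ha : a ∈ A)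
    (hx : (orderOf (a * s)).Coprime p) : ∃ c ∈ A, c * (a * s) * c⁻¹ = s := by
  obtain ⟨k, hk⟩ := IsPGroup.iff_card.1 hA
  set x := a * s with hxdef
  have hxn : x ∈ Subgroup.normalizer (A : Set G) := mul_mem (Subgroup.le_normalizer ha) hs
  have hdisj : ∀ y : G, (orderOf y).Coprime p → A ⊓ Subgroup.zpowers y = ⊥ := by
    intro y hy
    refine Subgroup.inf_eq_bot_of_coprime ?_
    rw [hk, Nat.card_zpowers]
    exact Nat.Coprime.pow_left _ hy.symm
  set L := A ⊔ Subgroup.zpowers s with hL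
  have hLn : L ≤ Subgroup.normalizer (A : Set G) := sup_le Subgroup.le_normalizer (by rwa [Subgroup.zpowers_le])
  have hLx : L = A ⊔ Subgroup.zpowers x := by
    apply le_antisymm
    · refine sup_le le_sup_left ?_
      rw [Subgroup.zpowers_le]
      have : s = a⁻¹ * x := by rw [hxdef]; group
      rw [this]
      exact mul_mem (Subgroup.mem_sup_left (inv_mem ha)) (Subgroup.mem_sup_right (Subgroup.mem_zpowers x))
    · refine sup_le le_sup_left ?_
      rw [Subgroup.zpowers_le]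
      exact mul_mem (Subgroup.mem_sup_left ha) (Subgroup.mem_sup_right (Subgroup.mem_zpowers s))
  have hcop : ∀ y : G, (orderOf y).Coprime p → (Nat.card A).Coprime (Nat.card (Subgroup.zpowers y)) := by
    intro y hy
    rw [hk, Nat.card_zpowers]
    exact Nat.Coprime.pow_left _ hy.symm
  have hcard : ∀ y : G, y ∈ Subgroup.normalizer (A : Set G) → (orderOf y).Coprime p →
      Nat.card A * Nat.card (Subgroup.zpowers y) = Nat.card (A ⊔ Subgroup.zpowers y : Subgroup G) := by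
    intro y hy hyp
    have h1 : Subgroup.zpowers y ≤ Subgroup.normalizer (A : Set G) := by rwa [Subgroup.zpowers_le]
    have h2 := (Cfsg.Agent.Cop.isComplement'_subgroupOf_sup h1 (hcop y hyp)).card_mul
    rwa [Nat.card_congr (Subgroup.subgroupOfEquivOfLe (le_sup_left : A ≤ A ⊔ Subgroup.zpowers y)).toEquiv,
      Nat.card_congr (Subgroup.subgroupOfEquivOfLe (le_sup_right : Subgroup.zpowers y ≤ A ⊔ Subgroup.zpowers y)).toEquiv]
      at h2
  have hcxs : Nat.card (Subgroup.zpowers x) = Nat.card (Subgroup.zpowers s) := by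
    have h1 := hcard s hs hsp
    have h2 := hcard x hxn hx
    rw [← hLx, hL, ← h1] at h2
    exact Nat.eq_of_mul_eq_mul_left Nat.card_pos h2
  obtain ⟨c', hc', hcx'⟩ := Cfsg.Agent.Cop.sz_rel (N := A) (A := Subgroup.zpowers s) (B := Subgroup.zpowers x)
    (by rwa [Subgroup.zpowers_le]) (by rw [← hL, hLx]; exact le_sup_right) hcxs (hcop s hsp)
    (Or.inr inferInstance)
  obtain ⟨c, hc, hcx⟩ : ∃ c ∈ A, MulAut.conj c • Subgroup.zpowers x = Subgroup.zpowers s := by
    refine ⟨c'⁻¹, inv_mem hc', ?_⟩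
    rw [← hcx', smul_smul, ← map_mul, inv_mul_cancel, map_one, one_smul]
  refine ⟨c, hc, ?_⟩
  have h1 : c * x * c⁻¹ ∈ Subgroup.zpowers s := by
    rw [← hcx]
    exact ⟨x, Subgroup.mem_zpowers x, rfl⟩
  have h2 : c * x * c⁻¹ * s⁻¹ ∈ A := by
    have e : c * x * c⁻¹ * s⁻¹ = c * a * (s * c⁻¹ * s⁻¹) := by rw [hxdef]; group
    rw [e]
    exact mul_mem (mul_mem hc ha) ((Subgroup.mem_normalizer_iff.1 hs _).1 (A.inv_mem hc))
  have h3 : c * x * c⁻¹ * s⁻¹ ∈ A ⊓ Subgroup.zpowers s :=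
    Subgroup.mem_inf.2 ⟨h2, (Subgroup.zpowers s).mul_mem h1 ((Subgroup.zpowers s).inv_mem (Subgroup.mem_zpowers s))⟩
  rw [hdisj s hsp, Subgroup.mem_bot] at h3
  exact mul_inv_eq_one.1 h3

/-- sum over a conjugacy orbit in a coset -/
theorem sum_coset_conj [Finite G] {p : ℕ} [hp : Fact p.Prime] {A : Subgroup G} (hA : IsPGroup p A) {s : G}
    (hs : s ∈ Subgroup.normalizer (A : Set G)) (hsp : (orderOf s).Coprime p) [Fintype A] (f : G → ℤ)
    (hf : ∀ g h : G, f (h * g * h⁻¹) = f g) (hf0 : ∀ g, p ∣ orderOf g → f g = 0) :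
    (Nat.card (A ⊓ Subgroup.centralizer {s} : Subgroup G) : ℤ) * ∑ a : A, f ((a : G) * s) = (Nat.card A : ℤ) * f s := by
  classical
  have hsn : ∀ a, a ∈ A → s * a * s⁻¹ ∈ A := fun a ha => (Subgroup.mem_normalizer_iff.1 hs a).1 ha
  -- the map `c ↦ c s c⁻¹ s⁻¹`
  set φ : A → A := fun c => ⟨c * (s * (c : G)⁻¹ * s⁻¹), mul_mem c.2 (hsn _ (inv_mem c.2))⟩ with hφ
  have h1 : (Nat.card A : ℤ) * f s = ∑ c : A, f ((φ c : G) * s) := by
    have : ∀ c : A, f ((φ c : G) * s) = f s := by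
      intro c
      have e : (φ c : G) * s = (c : G) * s * (c : G)⁻¹ := by rw [hφ]; simp only; group
      rw [e, hf]
    rw [Finset.sum_congr rfl fun c _ => this c, Finset.sum_const, nsmul_eq_mul, Finset.card_univ,
      ← Nat.card_eq_fintype_card]
  have h2 : ∑ c : A, f ((φ c : G) * s) = ∑ a : A, ∑ c ∈ Finset.univ.filter (fun c => φ c = a), f ((φ c : G) * s) :=
    (Finset.sum_fiberwise (s := Finset.univ) φ (fun c => f ((φ c : G) * s))).symm
  rw [h1, h2, Finset.mul_sum]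
  refine Finset.sum_congr rfl fun a _ => ?_
  have h3 : ∑ c ∈ Finset.univ.filter (fun c => φ c = a), f ((φ c : G) * s) =
      ((Finset.univ.filter (fun c => φ c = a)).card : ℤ) * f ((a : G) * s) := by
    rw [← nsmul_eq_mul, ← Finset.sum_const]
    refine Finset.sum_congr rfl fun c hc => ?_
    rw [(Finset.mem_filter.1 hc).2]
  rw [h3]
  by_cases hreg : (orderOf ((a : G) * s)).Coprime p
  · congr 1
    obtain ⟨c₀, hc₀, hcs⟩ := conj_of_coset hA hs hsp a.2 hreg
    -- the fibre is a coset of the centralizer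
    have h4 : ∀ c : A, φ c = a ↔ c₀ * (c : G) ∈ Subgroup.centralizer {s} := by
      intro c
      have h5 : φ c = a ↔ (c : G) * s * (c : G)⁻¹ = (a : G) * s := by
        rw [Subtype.ext_iff]
        change (c : G) * (s * (c : G)⁻¹ * s⁻¹) = (a : G) ↔ _
        rw [← mul_left_inj s]
        have e : (c : G) * (s * (c : G)⁻¹ * s⁻¹) * s = (c : G) * s * (c : G)⁻¹ := by group
        rw [e]
      rw [h5, Subgroup.mem_centralizer_singleton_iff]
      constructor
      · intro h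
        have h6 : c₀ * ((c : G) * s * (c : G)⁻¹) * c₀⁻¹ = s := by rw [h]; exact hcs
        calc c₀ * (c : G) * s = c₀ * ((c : G) * s * (c : G)⁻¹) * c₀⁻¹ * (c₀ * (c : G)) := by group
          _ = s * (c₀ * (c : G)) := by rw [h6]
      · intro h
        have h6 : (c : G) * s * (c : G)⁻¹ = c₀⁻¹ * (c₀ * (c : G) * s) * (c : G)⁻¹ := by group
        rw [h6, h]
        have h7 : (a : G) * s = c₀⁻¹ * s * c₀ := by
          calc (a : G) * s = c₀⁻¹ * (c₀ * ((a : G) * s) * c₀⁻¹) * c₀ := by group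
            _ = c₀⁻¹ * s * c₀ := by rw [hcs]
        rw [h7]; group
    have h5 : (Finset.univ.filter (fun c => φ c = a)).card = Nat.card (A ⊓ Subgroup.centralizer {s} : Subgroup G) := by
      rw [← Fintype.card_subtype, ← Nat.card_eq_fintype_card]
      refine Nat.card_congr ⟨fun c => ⟨c₀ * c.1, mul_mem hc₀ c.1.2, (h4 c.1).1 c.2⟩,
        fun c => ⟨⟨c₀⁻¹ * c.1, mul_mem (inv_mem hc₀) c.2.1⟩, (h4 _).2 ?_⟩, ?_, ?_⟩
      · change c₀ * (c₀⁻¹ * (c : G)) ∈ _
        rw [mul_inv_cancel_left]; exact c.2.2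
      · intro c; apply Subtype.ext; apply Subtype.ext; change c₀⁻¹ * (c₀ * (c.1 : G)) = c.1; group
      · intro c; apply Subtype.ext; change c₀ * (c₀⁻¹ * (c : G)) = c; group
    rw [h5]
  · have h4 : p ∣ orderOf ((a : G) * s) := by
      by_contra hcon
      exact hreg ((hp.out.coprime_iff_not_dvd.2 hcon).symm)
    rw [hf0 _ h4, mul_zero, mul_zero]

end burnside

variable {l n : ℕ} {D : RootPerm l n} {G : Type*} [Group G] {R : RGrp D.wsys G}

lemma smul_mk_eq_iff {P : Subgroup G} (g x y : G) : g • (x : G ⧸ P) = (y : G ⧸ P) ↔ (g * x)⁻¹ * y ∈ P := by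
  change ((g * x : G) : G ⧸ P) = _ ↔ _
  rw [QuotientGroup.eq]

section main

variable [Finite G]

/-- the orbits of the radical on residues that are fixed by an element in minimal position -/
theorem card_fixed_orbits (hT : R.Grp = ⊤) {J : Finset (Fin l)} {s : G} (hsJ : s ∈ par R J)
    (hmin : ∀ K : Finset (Fin l), K ⊆ J → K ≠ J → ∀ z : G ⧸ par R K, s • z ≠ z)
    (hs : ∀ a ∈ AJ R J, s * a * s⁻¹ ∈ AJ R J) (K : Finset (Fin l)) :
    Nat.card (fOrb (AJ R J) s hs (G ⧸ par R K)) =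
      Nat.card {w : D.W // DJ D J (w : Equiv.Perm (Fin n))⁻¹ ∧ DJ D K (w : Equiv.Perm (Fin n)) ∧
        ∀ j ∈ J, ∃ k ∈ K, (w : Equiv.Perm (Fin n)) (D.p k) = D.p j} := by
  symm
  have hrep : ∀ w : D.W, ∃ m ∈ R.N, R.Act m (w : Equiv.Perm (Fin n)) := fun w => exists_rep w.2
  choose m hm hA using hrep
  have hmem : ∀ w : {w : D.W // DJ D J (w : Equiv.Perm (Fin n))⁻¹ ∧ DJ D K (w : Equiv.Perm (Fin n)) ∧
        ∀ j ∈ J, ∃ k ∈ K, (w : Equiv.Perm (Fin n)) (D.p k) = D.p j},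
      ∃ a ∈ AJ R J, (a * s) • ((m w.1 : G) : G ⧸ par R K) = ((m w.1 : G) : G ⧸ par R K) := by
    intro w
    obtain ⟨a, ha, h⟩ := exists_radical_mul (hm w.1) (hA w.1) w.2.2.2 hsJ
    refine ⟨a⁻¹, inv_mem ha, ?_⟩
    rw [smul_mk_eq_iff]
    have e : (a⁻¹ * s * m w.1)⁻¹ * m w.1 = ((m w.1)⁻¹ * (a⁻¹ * s) * m w.1)⁻¹ := by group
    rw [e]; exact inv_mem h
  refine Nat.card_congr (Equiv.ofBijective (fun w => mkOrb hs (hmem w)) ⟨?_, ?_⟩)
  · rintro ⟨w, hw1, hw2, hw3⟩ ⟨w', hw1', hw2', hw3'⟩ h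
    apply Subtype.ext
    apply Subtype.ext
    change (w : Equiv.Perm (Fin n)) = w'
    obtain ⟨a, ha, hg'⟩ := (mkOrb_eq_iff hs _ _).1 h
    rw [smul_mk_eq_iff] at hg'
    obtain ⟨y, hy, hyC⟩ := inC_of_par hg'
    have h2 : InC R (w' : Equiv.Perm (Fin n)) (a * m w') :=
      (InC.of_N (hm w') (hA w')).mul_left (R.U_le_B (AJ_le_U J ha))
    have h3 := inC_mul w'.2 hw2' hy h2 hyC
    rw [mul_inv_cancel_left] at h3
    have h4 := h3.unique (InC.of_N (hm w) (hA w))
    refine dc_unique (J := J) (K := K) w.2 w'.2 hw2 hw2' hw1 hw1' (x := 1) (y := y) (one_mem _) hy ?_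
    rw [one_mul, h4]
  · intro q
    obtain ⟨z, hz, rfl⟩ := exists_mkOrb hs q
    obtain ⟨a, ha, haz⟩ := id hz
    · induction z using QuotientGroup.induction_on with
      | H g =>
        obtain ⟨p, hp, q, hq, u, hu, h1, h2⟩ := exists_min₂ hT J K g
        have huW := hu.mem_W
        obtain ⟨b, hb, b', hb', e⟩ := hu.rep (hm ⟨u, huW⟩) (hA ⟨u, huW⟩)
        set mu := m ⟨u, huW⟩ with hmu
        have hmuA : R.Act mu u := hA ⟨u, huW⟩
        have hmuN : mu ∈ R.N := hm ⟨u, huW⟩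
        -- `g P_K = c mu P_K` with `c ∈ P_J`
        set c : G := p⁻¹ * b with hc
        have hcP : c ∈ par R J := mul_mem (inv_mem hp) (B_le_par J hb)
        have hgc : ((g : G) : G ⧸ par R K) = ((c * mu : G) : G ⧸ par R K) := by
          rw [QuotientGroup.eq]
          have e1 : g⁻¹ * (c * mu) = q * b'⁻¹ := by
            have e2 : c * mu = p⁻¹ * (b * mu * b') * b'⁻¹ := by rw [hc]; group
            rw [e2, ← e]; group
          rw [e1]; exact mul_mem hq (inv_mem (B_le_par K hb'))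
        rw [hgc, smul_mk_eq_iff] at haz
        have hx1 : c⁻¹ * (a * s) * c ∈ par R J :=
          mul_mem (mul_mem (inv_mem hcP) (mul_mem (B_le_par J (R.U_le_B (AJ_le_U J ha))) hsJ)) hcP
        have hx2 : mu⁻¹ * (c⁻¹ * (a * s) * c) * mu ∈ par R K := by
          have := inv_mem haz
          have e3 : ((a * s * (c * mu))⁻¹ * (c * mu))⁻¹ = mu⁻¹ * (c⁻¹ * (a * s) * c) * mu := by group
          rwa [e3] at this
        have hx3 := mem_par_mJK hmuN hmuA h2 h1 hx1 hx2
        -- `s` fixes a residue of type `mJK`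
        have hM : mJK D J K u = J := by
          by_contra hne
          refine hmin (mJK D J K u) (fun j hj => (mem_mJK.1 hj).1) hne ((c : G) : G ⧸ par R (mJK D J K u)) ?_
          rw [smul_mk_eq_iff]
          have h5 : c⁻¹ * a * c ∈ AJ R J := by
            have := par_norm_AJ (R := R) (J := J) (inv_mem hcP) (a := a)
            rw [inv_inv] at this
            exact this.2 ha
          have h6 : c⁻¹ * a * c ∈ par R (mJK D J K u) := B_le_par _ (R.U_le_B (AJ_le_U J h5))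
          have e4 : (s * c)⁻¹ * c = ((c⁻¹ * a * c)⁻¹ * (c⁻¹ * (a * s) * c))⁻¹ := by group
          rw [e4]; exact inv_mem (mul_mem (inv_mem h6) hx3)
        have hw3 : ∀ j ∈ J, ∃ k ∈ K, u (D.p k) = D.p j := by
          intro j hj
          rw [← hM] at hj
          exact (mem_mJK.1 hj).2
        refine ⟨⟨⟨u, huW⟩, h1, h2, hw3⟩, ?_⟩
        obtain ⟨d, hd, hd'⟩ := exists_radical_mul hmuN hmuA hw3 hcP
        refine (mkOrb_eq_iff hs _ _).2 ⟨d⁻¹, inv_mem hd, ?_⟩
        rw [hgc, smul_mk_eq_iff]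
        have e5 : (d⁻¹ * (c * mu))⁻¹ * mu = (mu⁻¹ * (d⁻¹ * c) * mu)⁻¹ := by group
        rw [e5]; exact inv_mem hd'

/-- the average of the Steinberg character over a coset of the radical -/
theorem sum_stein_coset (hT : R.Grp = ⊤) {J : Finset (Fin l)} {s : G} (hsJ : s ∈ par R J)
    (hmin : ∀ K : Finset (Fin l), K ⊆ J → K ≠ J → ∀ z : G ⧸ par R K, s • z ≠ z) [Fintype (AJ R J)] :
    ∑ a : AJ R J, stein R ((a : G) * s) = (-1) ^ J.card * (Nat.card (AJ R J) : ℤ) := by
  classical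
  have hs : ∀ a ∈ AJ R J, s * a * s⁻¹ ∈ AJ R J := fun a ha => (par_norm_AJ hsJ).2 ha
  have : Fintype D.W := Fintype.ofFinite _
  unfold stein
  rw [Finset.sum_comm]
  have h1 : ∀ K ∈ (Finset.univ : Finset (Fin l)).powerset,
      ∑ a : AJ R J, (-1 : ℤ) ^ K.card * (Nat.card {z : G ⧸ par R K // ((a : G) * s) • z = z} : ℤ) =
      ∑ w : D.W, (if DJ D J (w : Equiv.Perm (Fin n))⁻¹ then (if DJ D K (w : Equiv.Perm (Fin n)) ∧
        ∀ j ∈ J, ∃ k ∈ K, (w : Equiv.Perm (Fin n)) (D.p k) = D.p j then (-1 : ℤ) ^ K.card else 0) else 0) *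
        (Nat.card (AJ R J) : ℤ) := by
    intro K _
    rw [← Finset.mul_sum, ← Nat.cast_sum, coset_burnside (AJ R J) s hs, card_fixed_orbits hT hsJ hmin hs K,
      Nat.cast_mul, ← mul_assoc, ← Finset.sum_mul]
    congr 1
    rw [Nat.card_eq_fintype_card, Fintype.card_subtype, ← Finset.sum_boole, Finset.mul_sum]
    refine Finset.sum_congr rfl fun w _ => ?_
    by_cases h2 : DJ D J (w : Equiv.Perm (Fin n))⁻¹
    · simp only [h2, true_and, if_true, mul_ite, mul_one, mul_zero]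
    · simp only [h2, false_and, if_false, mul_zero]
  rw [Finset.sum_congr rfl h1, Finset.sum_comm]
  have h2 : ∀ w : D.W, ∑ K ∈ (Finset.univ : Finset (Fin l)).powerset,
      (if DJ D J (w : Equiv.Perm (Fin n))⁻¹ then (if DJ D K (w : Equiv.Perm (Fin n)) ∧
        ∀ j ∈ J, ∃ k ∈ K, (w : Equiv.Perm (Fin n)) (D.p k) = D.p j then (-1 : ℤ) ^ K.card else 0) else 0) *
        (Nat.card (AJ R J) : ℤ) =
      (if w = ⟨wJ D J * wJ D Finset.univ, mul_mem (wJ_mem' J) (wJ_mem' _)⟩ then (-1) ^ J.card else 0) *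
        (Nat.card (AJ R J) : ℤ) := by
    intro w
    rw [← Finset.sum_mul]
    congr 1
    by_cases h3 : DJ D J (w : Equiv.Perm (Fin n))⁻¹
    · simp only [h3, if_true]
      rw [sum_types J w.2 h3]
      by_cases h4 : (w : Equiv.Perm (Fin n)) = wJ D J * wJ D Finset.univ
      · rw [if_pos h4, if_pos (Subtype.ext h4)]
      · rw [if_neg h4, if_neg (fun h => h4 (congrArg Subtype.val h))]
    · simp only [h3, if_false, Finset.sum_const_zero]
      rw [if_neg]
      rintro rfl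
      exact h3 (wJ0_DJ J)
  rw [Finset.sum_congr rfl fun w _ => h2 w, ← Finset.sum_mul, Finset.sum_ite_eq', if_pos (Finset.mem_univ _)]

/-- the value of the Steinberg character at a `p`-regular element in minimal position -/
theorem stein_min (hT : R.Grp = ⊤) {p : ℕ} [hp : Fact p.Prime] (hU : IsPGroup p R.U)
    (h0 : ∀ g : G, p ∣ orderOf g → stein R g = 0) {J : Finset (Fin l)} {s : G} (hsJ : s ∈ par R J)
    (hmin : ∀ K : Finset (Fin l), K ⊆ J → K ≠ J → ∀ z : G ⧸ par R K, s • z ≠ z) (hsp : (orderOf s).Coprime p) :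
    stein R s = (-1) ^ J.card * (Nat.card (AJ R J ⊓ Subgroup.centralizer {s} : Subgroup G) : ℤ) := by
  have : Fintype (AJ R J) := Fintype.ofFinite _
  have h1 := sum_stein_coset hT hsJ hmin
  have h2 := sum_coset_conj (hU.to_le (AJ_le_U J)) (par_le_normalizer J hsJ) hsp (stein R) (fun g h => stein_conj g h) h0
  rw [h1] at h2
  have h3 : (Nat.card (AJ R J) : ℤ) ≠ 0 := by exact_mod_cast Nat.card_pos.ne'
  apply mul_left_cancel₀ h3
  rw [← h2]; ring

/-- Every element is conjugate to one in minimal position. -/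
lemma exists_minimal (hT : R.Grp = ⊤) (s : G) : ∃ (J : Finset (Fin l)) (x : G), x * s * x⁻¹ ∈ par R J ∧
    ∀ K : Finset (Fin l), K ⊆ J → K ≠ J → ∀ z : G ⧸ par R K, (x * s * x⁻¹) • z ≠ z := by
  classical
  set P : Finset (Finset (Fin l)) := Finset.univ.filter fun J => ∃ z : G ⧸ par R J, s • z = z with hP
  have hne : P.Nonempty := by
    refine ⟨Finset.univ, Finset.mem_filter.2 ⟨Finset.mem_univ _, ((1 : G) : G ⧸ par R Finset.univ), ?_⟩⟩
    rw [smul_mk_eq_iff, par_univ hT]; trivial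
  obtain ⟨J, hJ, hmin⟩ := P.exists_min_image Finset.card hne
  obtain ⟨-, z, hz⟩ := Finset.mem_filter.1 hJ
  induction z using QuotientGroup.induction_on with
  | H y =>
    refine ⟨J, y⁻¹, ?_, ?_⟩
    · rw [smul_mk_eq_iff] at hz
      have e : y⁻¹ * s * y⁻¹⁻¹ = ((s * y)⁻¹ * y)⁻¹ := by group
      rw [e]; exact inv_mem hz
    · intro K hKJ hne' z h
      rw [fix_conj_iff] at h
      have h1 := hmin K (Finset.mem_filter.2 ⟨Finset.mem_univ _, _, h⟩)
      exact hne' (Finset.eq_of_subset_of_card_le hKJ h1)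

end main

end Cfsg.Agent.H39.St
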