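import Cfsg.Agent.H39.StVal
import Cfsg.Agent.Char.DefectZero

set_option autoImplicit false

/-!
Values of the Steinberg character at `p`-regular elements: `± |C(s)|_p`.
-/

namespace Cfsg.Agent.H39.St

open Cfsg Cfsg.Agent.ChevWeyl Cfsg.Agent.ChevGrp Cfsg.Agent.ChevGrp.RGrp Finset Cfsg.Agent.CharBase
open scoped Pointwise

variable {l n : ℕ} {D : RootPerm l n} {G : Type*} [Group G] {R : RGrp D.wsys G} [Finite G]

/-- the Steinberg character vanishes on `p`-singular elements -/
theorem stein_singular (hT : R.Grp = ⊤) {p : ℕ} [hp : Fact p.Prime] (hU : IsPGroup p R.U) (hI : ¬ p ∣ R.U.index)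
    {g : G} (hg : p ∣ orderOf g) : stein R g = 0 := by
  have : Fintype G := Fintype.ofFinite _
  obtain ⟨k, hk⟩ := IsPGroup.iff_card.1 hU
  have h1 : ¬ p ^ (k + 1) ∣ Nat.card G := by
    rw [← Subgroup.card_mul_index R.U, hk, pow_succ]
    intro h
    exact hI (Nat.dvd_of_mul_dvd_mul_left (pow_pos hp.out.pos k) h)
  have h2 := Cfsg.Agent.Char.DZ.eq_zero_of_defect_zero p k hp.out h1 (isIrrCharacter_stein hT) (d := Nat.card R.U)
    (by unfold steinC; rw [stein_one hT]; simp) (by rw [hk]) g hg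
  unfold steinC at h2
  exact_mod_cast h2

/-- the values of the Steinberg character -/
theorem stein_value (hT : R.Grp = ⊤) {p : ℕ} [hp : Fact p.Prime] (hU : IsPGroup p R.U) (hI : ¬ p ∣ R.U.index)
    {s : G} (hs : ¬ p ∣ orderOf s) :
    stein R s = ((p ^ (Nat.card ↥(Subgroup.centralizer ({s} : Set G))).factorization p : ℕ) : ℤ) ∨
      stein R s = -((p ^ (Nat.card ↥(Subgroup.centralizer ({s} : Set G))).factorization p : ℕ) : ℤ) := by
  have : Fintype G := Fintype.ofFinite _
  set C := Subgroup.centralizer ({s} : Set G) with hC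
  set v := (Nat.card C).factorization p with hv
  -- divisibility
  have h1 : (p ^ v : ℤ) ∣ stein R s := by
    have h2 := isIntegral_centralChar (isIrrCharacter_stein (R := R) hT) s
    have h3 : ((C.index : ℂ) * steinC R s / steinC R 1) = (((C.index : ℤ) * stein R s : ℤ) : ℂ) / ((Nat.card R.U : ℕ) : ℂ) := by
      unfold steinC
      rw [stein_one hT]; push_cast; ring
    rw [h3] at h2
    have h4 := Cfsg.Agent.Char.DZ.int_dvd_of_isIntegral_div Nat.card_pos.ne' h2
    have h5 : (Nat.card C : ℤ) * C.index = (Nat.card R.U : ℤ) * R.U.index := by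
      have : Nat.card C * C.index = Nat.card R.U * R.U.index := by
        rw [Subgroup.card_mul_index, Subgroup.card_mul_index]
      exact_mod_cast this
    have h6 : (Nat.card C : ℤ) * Nat.card R.U ∣ (Nat.card R.U : ℤ) * (R.U.index * stein R s) := by
      have h7 := mul_dvd_mul_left (Nat.card C : ℤ) h4
      have h8 : (Nat.card C : ℤ) * ((C.index : ℤ) * stein R s) = (Nat.card R.U : ℤ) * (R.U.index * stein R s) := by
        rw [← mul_assoc, h5, mul_assoc]
      rwa [h8] at h7
    have h7 : (Nat.card C : ℤ) ∣ R.U.index * stein R s := by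
      rw [mul_comm (Nat.card C : ℤ)] at h6
      exact (mul_dvd_mul_iff_left (by exact_mod_cast Nat.card_pos.ne')).1 h6
    have h8 : (p ^ v : ℤ) ∣ R.U.index * stein R s := by
      refine dvd_trans ?_ h7
      have : p ^ v ∣ Nat.card C := Nat.ordProj_dvd _ _
      exact_mod_cast this
    refine IsCoprime.dvd_of_dvd_mul_left ?_ h8
    have h9 : (p ^ v).Coprime R.U.index := Nat.Coprime.pow_left _ ((hp.out.coprime_iff_not_dvd).2 hI)
    have := Nat.isCoprime_iff_coprime.2 h9
    exact_mod_cast this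
  -- the value
  obtain ⟨J, x, hx, hmin⟩ := exists_minimal hT s
  have ho : orderOf (x * s * x⁻¹) = orderOf s := by
    rw [← MulAut.conj_apply]; exact orderOf_injective (MulAut.conj x).toMonoidHom (MulAut.conj x).injective s
  have h2 := stein_min hT hU (fun g hg => stein_singular hT hU hI hg) hx hmin
    (by rw [ho]; exact ((hp.out.coprime_iff_not_dvd).2 hs).symm)
  rw [stein_conj] at h2
  set A := AJ R J ⊓ Subgroup.centralizer {x * s * x⁻¹} with hA
  have hAp : IsPGroup p A := hU.to_le (inf_le_left.trans (AJ_le_U J))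
  obtain ⟨a, ha⟩ := IsPGroup.iff_card.1 hAp
  have hCc : Nat.card (Subgroup.centralizer {x * s * x⁻¹} : Subgroup G) = Nat.card C := by
    refine Nat.card_congr ⟨fun y => ⟨x⁻¹ * y.1 * x, ?_⟩, fun y => ⟨x * y.1 * x⁻¹, ?_⟩, ?_, ?_⟩
    · rw [hC, Subgroup.mem_centralizer_singleton_iff]
      have h3 := Subgroup.mem_centralizer_singleton_iff.1 y.2
      calc x⁻¹ * (y : G) * x * s = x⁻¹ * ((y : G) * (x * s * x⁻¹)) * x := by group
        _ = s * (x⁻¹ * (y : G) * x) := by rw [h3]; group
    · rw [Subgroup.mem_centralizer_singleton_iff]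
      have h3 := Subgroup.mem_centralizer_singleton_iff.1 y.2
      calc x * (y : G) * x⁻¹ * (x * s * x⁻¹) = x * ((y : G) * s) * x⁻¹ := by group
        _ = x * s * x⁻¹ * (x * (y : G) * x⁻¹) := by rw [h3]; group
    · intro y; apply Subtype.ext; change x * (x⁻¹ * (y : G) * x) * x⁻¹ = y; group
    · intro y; apply Subtype.ext; change x⁻¹ * (x * (y : G) * x⁻¹) * x = y; group
  have hdvd : p ^ a ∣ p ^ v := by
    have h3 : p ^ a ∣ Nat.card C := by
      rw [← ha, ← hCc]; exact Subgroup.card_dvd_of_le inf_le_right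
    have h4 : a ≤ v := (hp.out.pow_dvd_iff_le_factorization Nat.card_pos.ne').1 h3
    exact pow_dvd_pow _ h4
  have hdvd2 : p ^ v ∣ p ^ a := by
    rw [h2, ha] at h1
    have h3 : (p ^ v : ℤ) ∣ ((p ^ a : ℕ) : ℤ) := by
      rcases neg_one_pow_eq_or ℤ J.card with h | h
      · rwa [h, one_mul] at h1
      · rwa [h, neg_one_mul, dvd_neg] at h1
    exact_mod_cast h3
  have heq : p ^ a = p ^ v := Nat.dvd_antisymm hdvd hdvd2
  rw [h2, ha, heq]
  rcases neg_one_pow_eq_or ℤ J.card with h | h
  · left; rw [h, one_mul]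
  · right; rw [h, neg_one_mul]

end Cfsg.Agent.H39.St
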